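import Cfsg.Agent.P4.Defs

/-!
The order of a primitive permutation group: large grids.
-/

set_option autoImplicit false
set_option linter.unusedSectionVars false

namespace Cfsg.Agent.P4
open Equiv Finset MulAction

namespace Gr

variable {Ω T : Type*} [Fintype Ω] [DecidableEq Ω] [Fintype T] {X : Subgroup (Perm Ω)}
  {C : Finset (T → Ω)}

/-- An element interchanging two columns and fixing everything else. -/
def Sw (X : Subgroup (Perm Ω)) (c W : T → Ω) : Prop :=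
  ∃ s ∈ X, (∀ i, s (c i) = W i ∧ s (W i) = c i) ∧ ∀ z, (∀ i, z ≠ c i ∧ z ≠ W i) → s z = z

/-- Pairs of the same colour. -/
def Cq (X : Subgroup (Perm Ω)) (x y x' y' : Ω) : Prop := ∃ g ∈ X, g x = x' ∧ g y = y'

theorem Cq.trans {x y x' y' x'' y'' : Ω} (h : Cq X x y x' y') (h' : Cq X x' y' x'' y'') :
    Cq X x y x'' y'' := by
  obtain ⟨g, hg, rfl, rfl⟩ := h
  obtain ⟨g', hg', rfl, rfl⟩ := h'
  exact ⟨g' * g, mul_mem hg' hg, rfl, rfl⟩

theorem Cq.symm {x y x' y' : Ω} (h : Cq X x y x' y') : Cq X x' y' x y := by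
  obtain ⟨g, hg, rfl, rfl⟩ := h
  exact ⟨g⁻¹, inv_mem hg, by simp, by simp⟩

theorem Sw.conj {c W : T → Ω} (h : Sw X c W) {g : Perm Ω} (hg : g ∈ X) : Sw X (g ∘ c) (g ∘ W) := by
  obtain ⟨s, hs, h1, h2⟩ := h
  refine ⟨g * s * g⁻¹, mul_mem (mul_mem hg hs) (inv_mem hg), fun i => by simp [h1], fun z hz => ?_⟩
  obtain ⟨z, rfl⟩ := g.surjective z
  simpa using h2 z fun i => ⟨fun e => (hz i).1 (e ▸ rfl), fun e => (hz i).2 (e ▸ rfl)⟩

theorem Sw.symm {c W : T → Ω} (h : Sw X c W) : Sw X W c :=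
  h.imp fun _ h => ⟨h.1, fun i => (h.2.1 i).symm, fun z hz => h.2.2 z fun i => (hz i).symm⟩

theorem nb (pr : IsPreprimitive X Ω) {S : Set Ω} {x y z : Ω} (hx : x ∈ S) (hy : y ∈ S) (n : x ≠ y)
    (hz : z ∉ S) : ∃ g ∈ X, (∃ u ∈ S, g u ∈ S) ∧ ∃ v ∈ S, g v ∉ S := by
  by_contra! h
  rcases pr.isTrivialBlock_of_isBlock (B := S) (isBlock_iff_smul_eq_of_mem.2 fun g a h1 h2 =>
    Set.ext fun w => ⟨by rintro ⟨v, hv, rfl⟩; exact h g g.2 ⟨a, h1, h2⟩ v hv, fun hw =>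
      Set.mem_smul_set_iff_inv_smul_mem.2 (h _ (g⁻¹).2 ⟨_, h2,
        show g⁻¹ • g • a ∈ S by rwa [inv_smul_smul]⟩ w hw)⟩) with e | e
  exacts [n (e hx hy), hz (e ▸ trivial)]

variable (hC : Grid X C)
include hC

theorem ne {a b : T → Ω} (ha : a ∈ C) (hb : b ∈ C) (n : a ≠ b) (i j : T) : a i ≠ b j :=
  fun e => n (hC.1 a ha b hb i j e).1

theorem act (π : Perm C) : ∃ g ∈ X, (∀ (a : C) i, g (a.1 i) = (π a).1 i) ∧
    ∀ z, (∀ a ∈ C, ∀ i, z ≠ a i) → g z = z := by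
  classical
  induction π using Perm.swap_induction_on with
  | one => exact ⟨1, one_mem _, fun _ _ => rfl, fun _ _ => rfl⟩
  | swap_mul f x y n ih =>
    obtain ⟨g, hg, h1, h2⟩ := ih
    obtain ⟨s, hs, h3, h4⟩ := hC.2 x x.2 y y.2
    refine ⟨s * g, mul_mem hs hg, fun a i => ?_, fun z hz => by
      rw [Perm.mul_apply, h2 z hz, h4 z fun i => ⟨hz _ x.2 i, hz _ y.2 i⟩]⟩
    rw [Perm.mul_apply, Perm.mul_apply, h1, swap_apply_def]
    split_ifs with e1 e2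
    · rw [e1, (h3 i).1]
    · rw [e2, (h3 i).2]
    · exact h4 _ fun j => ⟨ne hC (f a).2 x.2 (Subtype.coe_ne_coe.2 e1) _ _,
        ne hC (f a).2 y.2 (Subtype.coe_ne_coe.2 e2) _ _⟩

open Classical in
theorem hit (P : Finset Ω) : (C.filter fun d => ∃ k, d k ∈ P).card ≤ P.card := by
  choose g hg using fun d : (C.filter fun d => ∃ k, d k ∈ P) => (mem_filter.1 d.2).2
  rw [← Fintype.card_coe, ← Fintype.card_coe]
  exact Fintype.card_le_of_injective (fun d => ⟨_, hg d⟩) fun d e q => Subtype.ext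
    (hC.1 _ (mem_filter.1 d.2).1 _ (mem_filter.1 e.2).1 _ _ (congrArg Subtype.val q)).1

theorem avoid (P : Finset Ω) (h : P.card < C.card) : ∃ d ∈ C, ∀ k, d k ∉ P := by
  classical
  by_contra! c
  have := hit hC P
  rw [filter_true_of_mem c] at this
  omega

theorem thin (M P : Finset Ω) (h : ∀ d ∈ C, ∃ k, d k ∈ M) (h' : M.card + P.card < 2 * C.card) :
    ∃ d ∈ C, (∀ k, d k ∉ P) ∧ ∃ k, ∀ l, d l ∈ M → l = k := by
  classical
  by_contra! c
  have h1 : (C.sigma fun d => univ.filter fun k => d k ∈ M).card ≤ M.card :=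
    card_le_card_of_injOn (fun x => x.1 x.2) (fun x hx => (mem_filter.1 (mem_sigma.1 hx).2).2)
      fun x hx y hy e => by
        obtain ⟨e1, e2⟩ := hC.1 _ (mem_sigma.1 hx).1 _ (mem_sigma.1 hy).1 _ _ e
        exact Sigma.ext e1 (heq_of_eq e2)
  have h2 := hit hC P
  rw [card_sigma] at h1
  rw [card_filter] at h2
  have h3 := card_nsmul_le_sum C (fun d => (univ.filter fun k => d k ∈ M).card +
    if ∃ k, d k ∈ P then 1 else 0) 2 fun d hd => by
      obtain ⟨k, hk⟩ := h d hd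
      split_ifs with e
      · have := card_pos.2 (⟨k, by simpa using hk⟩ : (univ.filter fun k => d k ∈ M).Nonempty)
        omega
      · obtain ⟨l, hl, n⟩ := c d hd (by simpa using e) k
        exact one_lt_card.2 ⟨k, by simpa using hk, l, by simpa using hl, n.symm⟩
  rw [sum_add_distrib, smul_eq_mul] at h3
  omega

variable (hc : Cl2 X) {p : ℕ} (hp : p.Prime)
  (hmin : ∀ σ ∈ X, σ ≠ 1 → σ ^ p = 1 → Fintype.card T * p ≤ σ.support.card)
include hc hp hmin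

theorem noE (hb : C.card = p) (I : Finset T) (i : I) {j : T} (hj : j ∉ I)
    (K : ∀ i ∈ I, ∀ j ∉ I, ∀ a ∈ C, ∀ b ∈ C, Cq X (b i) (b j) (a i) (b j)) : False := by
  classical
  have := Fact.mk hp
  obtain ⟨π, hπ⟩ := exists_prime_orderOf_dvd_card (G := Perm C) p (by
    rw [Fintype.card_perm, Fintype.card_coe, hb]; exact Nat.dvd_factorial hp.pos le_rfl)
  let e : (Σ _ : I, C) ↪ Ω := ⟨fun x => x.2.1 x.1, fun x y e => by
    obtain ⟨e1, e2⟩ := hC.1 _ x.2.2 _ y.2.2 _ _ e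
    exact Sigma.ext (Subtype.ext e2) (heq_of_eq (Subtype.ext e1))⟩
  let σ := Perm.viaEmbeddingHom e (Perm.sigmaCongrRightHom _ fun _ => π)
  have s1 : ∀ x, σ (e x) = (π x.2).1 x.1 := fun x => Perm.viaEmbedding_apply _ e x
  have s2 : ∀ z ∉ Set.range e, σ z = z := Perm.viaEmbedding_apply_of_notMem _ e
  obtain ⟨g, hg, g1, g2⟩ := act hC π
  have mx : ∀ x, ∀ y ∉ Set.range e, Cq X (e x) y (σ (e x)) (σ y) := fun x y hy => by
    rw [s1, s2 y hy]
    by_cases h : ∃ a ∈ C, ∃ i, y = a i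
    · obtain ⟨b, hb, j, rfl⟩ := h
      have hj : j ∉ I := fun h => hy ⟨⟨⟨j, h⟩, b, hb⟩, rfl⟩
      exact (K _ x.1.2 j hj _ x.2.2 b hb).symm.trans (K _ x.1.2 j hj _ (π x.2).2 b hb)
    · exact ⟨g, hg, g1 _ _, g2 y (by simpa using h)⟩
  have := hmin σ (hc σ fun x y => by
    by_cases hx : x ∈ Set.range e <;> by_cases hy : y ∈ Set.range e
    · obtain ⟨x, rfl⟩ := hx
      obtain ⟨y, rfl⟩ := hy
      exact ⟨g, hg, (g1 _ _).trans (s1 x).symm, (g1 _ _).trans (s1 y).symm⟩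
    · obtain ⟨x, rfl⟩ := hx
      exact mx x y hy
    · obtain ⟨y, rfl⟩ := hy
      exact (mx y x hx).imp fun _ h => ⟨h.1, h.2.symm⟩
    · exact ⟨1, one_mem _, (s2 x hx).symm, (s2 y hy).symm⟩)
    (fun h => hp.one_lt.ne' (hπ.symm.trans (orderOf_eq_one_iff.2 (Equiv.ext fun a => Subtype.ext
      (hC.1 _ (π a).2 _ a.2 i i ((s1 ⟨i, a⟩).symm.trans (by rw [h]; rfl))).1))))
    (by rw [← map_pow, ← map_pow, ← hπ, show (fun _ : I => π) ^ orderOf π = 1 from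
      funext fun _ => pow_orderOf_eq_one π, map_one, map_one])
  have h1 : σ.support.card ≤ (univ.map e).card := card_le_card fun z hz => by
    by_contra h
    exact Perm.mem_support.1 hz (s2 z (by simpa using h))
  have h2 : I.card < Fintype.card T := card_lt_univ_of_notMem hj
  rw [card_map, card_univ, Fintype.card_sigma, sum_const, card_univ, Fintype.card_coe,
    Fintype.card_coe, hb, smul_eq_mul] at h1
  nlinarith [hp.pos]

variable (mx : ∀ C' : Finset (T → Ω), Grid X C' → C'.card ≤ C.card) (hb : p + 1 ≤ C.card)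
  (htp : Fintype.card T < p) [Nonempty T]
include mx hb htp

theorem clA {c W : T → Ω} (h : c ∈ C) (hW : Sw X c W) (dj : ∀ i j, W i ≠ c j) :
    ∃ d ∈ C, ∀ j, ∃ l, W j = d l := by
  classical
  obtain ⟨i0⟩ := ‹Nonempty T›
  by_cases m : ∃ d ∈ C, ∃ i k, W i = d k
  swap
  · push Not at m
    have sw : ∀ d ∈ C, Sw X d W := fun d hd => by
      obtain ⟨s, hs, h1, h2⟩ := hC.2 c h d hd
      convert hW.conj hs using 1
      exacts [funext fun i => (h1 i).1.symm,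
        funext fun i => (h2 _ fun j => ⟨m c h i j, m d hd i j⟩).symm]
    have := mx (insert W C) ⟨by
      obtain ⟨s, -, h1, -⟩ := hW
      simp only [forall_mem_insert]
      exact ⟨⟨fun i j e => ⟨trivial, (hC.1 c h c h i j (by rw [← (h1 i).2, e, (h1 j).2])).2⟩,
        fun d hd i j e => absurd e (m d hd i j)⟩, fun d hd =>
        ⟨fun i j e => absurd e.symm (m d hd j i), hC.1 d hd⟩⟩, by
      simp only [forall_mem_insert]
      exact ⟨⟨⟨1, one_mem _, fun _ => ⟨rfl, rfl⟩, fun _ _ => rfl⟩, fun d hd => (sw d hd).symm⟩,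
        fun d hd => ⟨sw d hd, hC.2 d hd⟩⟩⟩
    rw [card_insert_of_notMem fun e => m W e i0 i0 rfl] at this
    omega
  obtain ⟨d, hd, i1, m⟩ := m
  refine ⟨d, hd, by_contra fun n => ?_⟩
  obtain ⟨j1, n⟩ := not_forall.1 n
  obtain ⟨f, hf, a⟩ := avoid hC (insert (c i0) (univ.image W)) (by
    have := card_insert_le (c i0) (univ.image W)
    have := card_image_le (s := univ) (f := W)
    rw [card_univ] at this
    omega)
  simp only [mem_insert, mem_image, mem_univ, true_and, not_or, not_exists] at a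
  have fc : f ≠ c := fun e => (a i0).1 (e ▸ rfl)
  have dc : d ≠ c := by rintro rfl; obtain ⟨k, e⟩ := m; exact dj _ _ e
  have df : d ≠ f := by rintro rfl; obtain ⟨k, e⟩ := m; exact (a k).2 _ e
  obtain ⟨C', h1, h2⟩ := exists_subset_card_eq (show p ≤ C.card by omega)
  refine noE (C := C') ⟨fun x hx y hy => hC.1 x (h1 hx) y (h1 hy), fun x hx y hy =>
    hC.2 x (h1 hx) y (h1 hy)⟩ hc hp hmin h2 (univ.filter fun i => ∃ k, W i = d k)
    ⟨i1, by simpa using m⟩ (j := j1) (by simpa using n) fun i hi j hj x hx y hy => ?_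
  obtain ⟨k, hk⟩ := (mem_filter.1 hi).2
  simp only [mem_filter, mem_univ, true_and, not_exists] at hj
  obtain ⟨ψ, ψ0, ψ1, ψ2⟩ := hW
  obtain ⟨τ, τ0, τ1, τ2⟩ := hC.2 d hd f hf
  obtain ⟨s, s0, s1, s2⟩ := hC.2 c h f hf
  have ψf : ∀ k, ψ (f k) = f k := fun k => ψ2 _ fun l => ⟨ne hC hf h fc _ _, Ne.symm ((a k).2 l)⟩
  have r : Cq X (c i) (c j) (c i) (f j) :=
    (Cq.trans ⟨ψ, ψ0, (ψ1 i).1.trans hk, (ψ1 j).1⟩ (Cq.trans
      ⟨τ, τ0, (τ1 k).1, τ2 _ fun l => ⟨hj l, (a l).2 j⟩⟩ (Cq.trans ⟨ψ, ψ0, ψf k, (ψ1 j).2⟩ (Cq.trans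
      ⟨τ, τ0, (τ1 k).2, τ2 _ fun l => ⟨ne hC h hd dc.symm _ _, ne hC h hf fc.symm _ _⟩⟩ (Cq.trans
      ⟨s, s0, s2 _ fun l => ⟨ne hC hd h dc _ _, ne hC hd hf df _ _⟩, (s1 j).1⟩
      ⟨ψ, ψ0, hk ▸ (ψ1 i).2, ψf j⟩)))))
  have r' : ∀ x ∈ C, Cq X (f i) (f j) (x i) (f j) := fun x hx => by
    by_cases e : x = f
    · exact ⟨1, one_mem _, e ▸ rfl, rfl⟩
    obtain ⟨u, u0, u1, u2⟩ := hC.2 c h x hx
    exact Cq.trans ⟨s, s0, (s1 i).2, (s1 j).2⟩ (r.trans ⟨u, u0, (u1 i).1,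
      u2 _ fun l => ⟨ne hC hf h fc _ _, ne hC hf hx (Ne.symm e) _ _⟩⟩)
  obtain ⟨g, hg, g1, -⟩ := act hC (swap ⟨f, hf⟩ ⟨y, h1 hy⟩)
  have g2 : ∀ l, g (f l) = y l := fun l => by simpa using g1 ⟨f, hf⟩ l
  exact (Cq.symm ⟨g, hg, g2 i, g2 j⟩).trans ((r' _ (swap ⟨f, hf⟩ ⟨y, h1 hy⟩ ⟨x, h1 hx⟩ : C).2).trans
    ⟨g, hg, by simpa using g1 (swap ⟨f, hf⟩ ⟨y, h1 hy⟩ ⟨x, h1 hx⟩) i, g2 j⟩)

theorem clB {θ : Perm Ω} (h : θ ∈ X) {c d : T → Ω} (h1 : c ∈ C) (fx : ∀ i, θ (c i) = c i)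
    (hd : d ∈ C) : ∃ e ∈ C, ∀ j, ∃ l, θ (d j) = e l := by
  by_cases n : d = c
  · exact ⟨c, h1, fun j => ⟨j, n ▸ fx j⟩⟩
  have := Sw.conj (hC.2 c h1 d hd) h
  rw [show θ ∘ c = c from funext fx] at this
  exact clA hC hc hp hmin mx hb htp h1 this fun i j e =>
    ne hC hd h1 n i j (θ.injective (e.trans (fx j).symm))

theorem clC {θ : Perm Ω} (h : θ ∈ X) {c d : T → Ω} (h1 : c ∈ C) (fx : ∀ i, θ (c i) = c i)
    (hd : d ∈ C) {i k : T} (e : θ (d i) = d k) (j : T) : ∃ l, θ (d j) = d l := by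
  obtain ⟨f, hf, h2⟩ := clB hC hc hp hmin mx hb htp h h1 fx hd
  obtain ⟨l, h3⟩ := h2 i
  exact (hC.1 d hd f hf _ _ (e.symm.trans h3)).1 ▸ h2 j

theorem five (pr : IsPreprimitive X Ω) [Nontrivial T] (h5 : 5 ≤ C.card) : False := by
  classical
  obtain ⟨c, h1, c', h2, n⟩ := one_lt_card.1 (show 1 < C.card by omega)
  obtain ⟨i, j, n'⟩ := exists_pair_ne T
  obtain ⟨g, hg, ⟨_, ⟨u, rfl⟩, u', hu⟩, _, ⟨v, rfl⟩, hv⟩ := nb pr (S := Set.range c) ⟨i, rfl⟩ ⟨j, rfl⟩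
    (fun e => n' (hC.1 c h1 c h1 i j e).2) (z := c' i) fun ⟨k, e⟩ => ne hC h1 h2 n _ _ e
  obtain ⟨b, h3, a⟩ := avoid hC (univ.image (g ∘ c)) (by
    have := card_image_le (s := univ) (f := g ∘ c)
    rw [card_univ] at this
    omega)
  simp only [mem_image, mem_univ, true_and, not_exists, Function.comp] at a
  obtain ⟨θ, θ0, θ1, θ2⟩ := Sw.conj (hC.2 c h1 b h3) (inv_mem hg)
  simp only [Function.comp] at θ1 θ2
  have hM : θ.support.card ≤ 2 * Fintype.card T := by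
    have := card_le_card (show θ.support ⊆ univ.image (⇑g⁻¹ ∘ c) ∪ univ.image (⇑g⁻¹ ∘ b) from
      fun z hz => by
        by_contra h
        simp only [mem_union, mem_image, mem_univ, true_and, not_or, not_exists] at h
        exact Perm.mem_support.1 hz (θ2 z fun i => ⟨Ne.symm (h.1 i), Ne.symm (h.2 i)⟩))
    have := card_union_le (univ.image (⇑g⁻¹ ∘ c)) (univ.image (⇑g⁻¹ ∘ b))
    have := card_image_le (s := univ) (f := ⇑g⁻¹ ∘ c)
    have := card_image_le (s := univ) (f := ⇑g⁻¹ ∘ b)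
    rw [card_univ] at *
    omega
  have mv : ∀ d ∈ C, ∃ k, d k ∈ θ.support := fun d hd => by
    by_contra! f
    obtain ⟨l, e⟩ := clC hC hc hp hmin mx hb htp θ0 hd (fun i => Perm.notMem_support.1 (f i)) h1
      (θ2 (c v) fun i => ⟨fun e => hv ⟨i, by simp [e]⟩, fun e => a i v (by simp [e])⟩) u
    rw [show c u = g⁻¹ (c u') by simp [hu], (θ1 u').1] at e
    exact a u' l (by simp [← e])
  obtain ⟨x, hx, -, r, hr⟩ := thin hC θ.support ∅ mv (by rw [card_empty]; omega)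
  obtain ⟨y, hy, y1, w, hw⟩ := thin hC θ.support {x r, θ (x r)} mv (by
    have := card_le_two (a := x r) (b := θ (x r))
    omega)
  obtain ⟨f, hf, f1⟩ := avoid hC {x r, θ (x r), y w, θ (y w)} (by
    have := card_le_four (a := x r) (b := θ (x r)) (c := y w) (d := θ (y w))
    omega)
  simp only [mem_insert, mem_singleton, not_or] at y1 f1
  have yf : y ≠ f := fun e => (f1 w).2.2.1 (e ▸ rfl)
  obtain ⟨s, s0, s1, s2⟩ := hC.2 y hy f hf
  have fy : ∀ l, l ≠ w → θ (y l) = y l := fun l n => Perm.notMem_support.1 (mt (hw l) n)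
  obtain ⟨w', n⟩ := exists_ne w
  obtain ⟨l, e⟩ := clC hC hc hp hmin mx hb htp (mul_mem (mul_mem (inv_mem θ0) s0) θ0) hx
    (fun k => by
      rw [Perm.mul_apply, Perm.mul_apply, s2, Perm.inv_eq_iff_eq]
      by_cases e : k = r
      · exact fun l => e ▸ ⟨Ne.symm (y1 l).2, Ne.symm (f1 l).2.1⟩
      · rw [Perm.notMem_support.1 (mt (hr k) e)]
        exact fun l => ⟨ne hC hx hy (fun e => (y1 r).1 (e ▸ rfl)) _ _,
          ne hC hx hf (fun e => (f1 r).1 (e ▸ rfl)) _ _⟩) hy (i := w) (k := w) (by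
      rw [Perm.mul_apply, Perm.mul_apply, s2, Perm.inv_eq_iff_eq]
      refine fun l => ⟨fun e => ?_, Ne.symm (f1 l).2.2.2⟩
      obtain ⟨k, hk⟩ := mv y hy
      obtain rfl := hw k hk
      by_cases e' : l = k
      · exact Perm.mem_support.1 hk (e' ▸ e)
      · exact e' (hC.1 y hy y hy _ _ (θ.injective (e.trans (fy l e').symm))).2.symm) w'
  rw [Perm.mul_apply, Perm.mul_apply, fy w' n, (s1 w').1, Perm.inv_eq_iff_eq] at e
  by_cases e' : l = w
  · exact (f1 w').2.2.2 (e' ▸ e)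
  · exact ne hC hf hy yf.symm _ _ (e.trans (fy l e'))

theorem four (pr : IsPreprimitive X Ω) (h2 : Fintype.card T = 2) (h4 : C.card = 4) :
    Fintype.card Ω ≤ 8 := by
  classical
  by_contra! h8
  obtain ⟨c, h1, c', h3, n⟩ := one_lt_card.1 (show 1 < C.card by omega)
  obtain ⟨i0⟩ := ‹Nonempty T›
  obtain ⟨z, -, hz⟩ := exists_mem_notMem_of_card_lt_card
    (show ((C ×ˢ univ).image fun x : (T → Ω) × T => x.1 x.2).card < (univ : Finset Ω).card from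
      card_image_le.trans_lt (by rw [card_product, h4, card_univ, h2, card_univ]; omega))
  obtain ⟨g, hg, ⟨_, ⟨a, ha, i, rfl⟩, m, hm, k, hk⟩, _, ⟨b, hb', j, rfl⟩, hv⟩ := nb pr
    (S := {z | ∃ a ∈ C, ∃ i, a i = z}) ⟨c, h1, i0, rfl⟩ ⟨c', h3, i0, rfl⟩ (ne hC h1 h3 n _ _)
    (z := z) (by simpa using hz)
  have key : ∀ d ∈ C, ∀ e ∈ C, ∀ r, (¬ ∃ a ∈ C, ∃ i, a i = g (e r)) → ∃ θ : Perm Ω,
      (∀ i, θ (g (d i)) = g (e i)) ∧ (∀ z, (∀ i, z ≠ g (d i) ∧ z ≠ g (e i)) → θ z = z) ∧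
      ∀ d ∈ C, ∃ e ∈ C, ∀ j, ∃ l, θ (d j) = e l := fun d hd e he r h => by
    obtain ⟨θ, θ0, θ1, θ2⟩ := Sw.conj (hC.2 d hd e he) hg
    obtain ⟨f, hf, f1⟩ := avoid hC (univ.image (g ∘ d) ∪ (univ.erase r).image (g ∘ e)) (by
      have := card_union_le (univ.image (g ∘ d)) ((univ.erase r).image (g ∘ e))
      have := card_image_le (s := univ) (f := g ∘ d)
      have := card_image_le (s := univ.erase r) (f := g ∘ e)
      rw [card_erase_of_mem (mem_univ r)] at this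
      rw [card_univ] at *
      omega)
    simp only [mem_union, mem_image, mem_univ, true_and, not_or, not_exists, mem_erase, and_true,
      not_and] at f1
    exact ⟨θ, fun i => (θ1 i).1, θ2, fun d hd => clB hC hc hp hmin mx hb htp θ0 hf (fun i => θ2 _
      fun l => ⟨Ne.symm ((f1 i).1 l), fun q => (f1 i).2 l (by rintro rfl; exact h ⟨f, hf, i, q⟩)
        q.symm⟩) hd⟩
  have row : ∀ d ∈ C, ∀ e ∈ C, ∀ r, (∃ a ∈ C, ∃ i, a i = g (d r)) → ∃ a ∈ C, ∃ i, a i = g (e r) := by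
    rintro d hd e he r ⟨m, hm, k, hk⟩
    by_contra h
    obtain ⟨θ, θ1, -, θ3⟩ := key d hd e he r h
    obtain ⟨f, hf, h'⟩ := θ3 m hm
    obtain ⟨l, hl⟩ := h' k
    exact h ⟨f, hf, l, by rw [← hl, hk, θ1]⟩
  have out : ∀ e ∈ C, ¬ ∃ a ∈ C, ∃ i, a i = g (e j) := fun e he h => hv (row e he b hb' j h)
  have ij : ∀ r, r ≠ j → r = i := fun r n => by
    by_contra n'
    have := card_le_univ ({r, j, i} : Finset T)
    rw [card_eq_three.2 ⟨r, j, i, n, n', fun e => out a ha ⟨m, hm, k, e ▸ hk⟩, rfl⟩] at this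
    omega
  have : Nontrivial T := Fintype.one_lt_card_iff_nontrivial.1 (by omega)
  obtain ⟨k', n⟩ := exists_ne k
  have all : ∀ e : C, ∃ l, m l = g (e.1 i) := fun ⟨e, he⟩ => by
    by_contra! h
    obtain ⟨θ, θ1, θ2, θ3⟩ := key a ha e he j (out e he)
    obtain ⟨f, hf, h'⟩ := θ3 m hm
    obtain ⟨l, hl⟩ := h' k
    obtain ⟨l', hl'⟩ := h' k'
    rw [θ2 _ fun r => ?_] at hl'
    · exact h l (by rw [(hC.1 m hm f hf _ _ hl').1, ← hl, hk, θ1])
    by_cases q : r = j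
    · exact q ▸ ⟨fun q => out a ha ⟨m, hm, k', q⟩, fun q => out e he ⟨m, hm, k', q⟩⟩
    · exact ij r q ▸ ⟨fun q => n (hC.1 m hm m hm _ _ (q.trans hk.symm)).2, h k'⟩
  choose l hl using all
  have := Fintype.card_le_of_injective l fun x y e => Subtype.ext
    (hC.1 _ x.2 _ y.2 i i (g.injective (by rw [← hl, e, hl]))).1
  rw [Fintype.card_coe] at this
  omega

end Gr

theorem grid {Ω : Type*} [Fintype Ω] [DecidableEq Ω] {X : Subgroup (Perm Ω)} (hc : Cl2 X)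
    (pr : IsPreprimitive X Ω) (hX : X ≠ ⊤) {p t : ℕ} (hp : p.Prime) (htp : t < p)
    (hmin : ∀ σ ∈ X, σ ≠ 1 → σ ^ p = 1 → t * p ≤ σ.support.card) {T : Type*} [Fintype T]
    (hT : Fintype.card T = t) (ht : 1 ≤ t) {C : Finset (T → Ω)} (hC : Grid X C)
    (hb : p + 1 ≤ C.card) : Fintype.card Ω ≤ t * p + t * (t - 1) := by
  classical
  subst hT
  obtain ⟨D, hD, mx⟩ := exists_max_image (univ.filter (Grid X)) card ⟨C, by simpa using hC⟩
  simp only [mem_filter, mem_univ, true_and] at hD mx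
  replace hb := hb.trans (mx C hC)
  have : Nonempty T := Fintype.card_pos_iff.1 ht
  rcases subsingleton_or_nontrivial T with h | h
  · obtain ⟨c, h1, d, h2, n⟩ := one_lt_card.1 (show 1 < D.card by omega)
    obtain ⟨i⟩ := this
    obtain ⟨s, s0, s1, s2⟩ := hD.2 c h1 d h2
    refine absurd (Perm.subgroup_eq_top_of_isPreprimitive_of_isSwap_mem pr s
      ⟨c i, d i, Gr.ne hD h1 h2 n i i, Equiv.ext fun z => ?_⟩ s0) hX
    rw [swap_apply_def]
    split_ifs with e1 e2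
    exacts [e1 ▸ (s1 i).1, e2 ▸ (s1 i).2, s2 z fun j => Subsingleton.elim i j ▸ ⟨e1, e2⟩]
  have h1 := Fintype.one_lt_card (α := T)
  by_cases h5 : 5 ≤ D.card
  · exact (Gr.five hD hc hp hmin mx hb htp pr h5).elim
  have := Gr.four hD hc hp hmin mx hb htp pr (by omega) (by omega)
  rw [show Fintype.card T = 2 by omega, show p = 3 by omega]
  exact this

end Cfsg.Agent.P4
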