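import Cfsg.Agent.P4.I1

/-!
Doubly transitive groups with imprimitive point stabiliser: the block systems and the first bound.
-/

set_option autoImplicit false
set_option linter.unusedSectionVars false

namespace Cfsg.Agent.P4
open MulAction Finset

variable {G Ω : Type*} [Group G] [Finite G] [Fintype Ω] [DecidableEq Ω] [MulAction G Ω] [FaithfulSMul G Ω]

namespace I0

theorem two [IsMultiplyPretransitive G Ω 2] {a b c d : Ω} (h1 : a ≠ b) (h2 : c ≠ d) :
    ∃ g : G, g • a = c ∧ g • b = d := is_two_pretransitive_iff.1 inferInstance h1 h2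

theorem bl_of [IsMultiplyPretransitive G Ω 2] {a x₀ : Ω} {D : Finset Ω} (ha : a ∉ D) (h0 : x₀ ∈ D)
    (hD : ∀ g : G, g • a = a → ∀ x ∈ D, g • x ∈ D → ∀ y ∈ D, g • y ∈ D) :
    ∃ B, Bl G B D.card ∧ B a x₀ = D := by
  classical
  let B : Ω → Ω → Finset Ω := fun c x => univ.filter fun y => ∃ g : G, g • c = a ∧ g • x ∈ D ∧ g • y ∈ D
  have key : ∀ (g : G) c x, g • c = a → g • x ∈ D → ∀ y, y ∈ B c x ↔ g • y ∈ D := fun g c x h1 h2 y => by
    simp only [B, mem_filter, mem_univ, true_and]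
    refine ⟨fun ⟨g', e1, e2, e3⟩ => ?_, fun h => ⟨g, h1, h2, h⟩⟩
    simpa [mul_smul] using hD (g * g'⁻¹) (by rw [mul_smul, inv_smul_eq_iff.2 e1.symm, h1]) _ e2
      (by simpa [mul_smul] using h2) _ e3
  have hx : a ≠ x₀ := fun e => ha (e ▸ h0)
  have eqv : ∀ (g : G) a x y, g • y ∈ B (g • a) (g • x) ↔ y ∈ B a x := fun g c x y => by
    simp only [B, mem_filter, mem_univ, true_and]
    exact ⟨fun ⟨g', h⟩ => ⟨g' * g, by simpa [mul_smul] using h⟩, fun ⟨g', h⟩ => ⟨g' * g⁻¹, by simpa [mul_smul] using h⟩⟩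
  have mem : ∀ c x, c ≠ x → x ∈ B c x := fun c x h => by
    obtain ⟨g, h1, h2⟩ := two (G := G) h hx
    exact (key g c x h1 (h2 ▸ h0) x).2 (h2 ▸ h0)
  have card : ∀ c x, c ≠ x → (B c x).card = D.card := fun c x h => by
    obtain ⟨g, h1, h2⟩ := two (G := G) h hx
    exact card_equiv (toPerm g) (key g c x h1 (h2 ▸ h0))
  have emp : ∀ c, B c c = ∅ := fun c => eq_empty_of_forall_notMem fun y hy => by
    obtain ⟨g, h1, h2, -⟩ := (mem_filter.1 hy).2
    exact ha (h1 ▸ h2)
  refine ⟨B, ⟨eqv, mem, fun c x hy => ?_, fun c x y hy => ?_, card, emp, fun x y hxy => ?_⟩,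
    Finset.ext fun y => by simpa using key 1 a x₀ (by simp) (by simpa using h0) y⟩
  · obtain ⟨g, h1, -, h2⟩ := (mem_filter.1 hy).2
    exact ha (h1 ▸ h2)
  · obtain ⟨g, h1, h2, h3⟩ := (mem_filter.1 hy).2
    exact Finset.ext fun z => (key g c y h1 h3 z).trans (key g c x h1 h2 z).symm
  · have := card_mul_eq_card_mul (s := univ.erase x) (t := univ.erase x) (fun c z => z ∈ B c x) (m := D.card - 1)
      (n := (univ.filter fun c => y ∈ B c x).card) (fun c hc => by
        rw [← card c x (ne_of_mem_erase hc), ← card_erase_of_mem (mem c x (ne_of_mem_erase hc))]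
        congr 1; ext z; simp [bipartiteAbove, and_comm]) fun z hz => by
        obtain ⟨g, h1, h2⟩ := two (G := G) (ne_of_mem_erase hz).symm hxy
        refine card_equiv (toPerm g) fun c => ?_
        have := eqv g c x z
        rw [h1, h2] at this
        simp only [bipartiteBelow, mem_filter, mem_erase, mem_univ, true_and, and_true, toPerm_apply, this]
        exact and_iff_right_of_imp (by rintro h rfl; simp [emp] at h)
    exact (Nat.eq_of_mul_eq_mul_left (card_pos.2 ⟨y, by simpa using hxy.symm⟩) this).symm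

theorem dvd {B : Ω → Ω → Finset Ω} {b : ℕ} (h : Bl G B b) (a : Ω) : b ∣ Fintype.card Ω - 1 := by
  rw [← card_univ, ← card_erase_of_mem (mem_univ a), card_eq_sum_card_image (B a)]
  refine dvd_sum fun _ hS => ?_
  obtain ⟨x, hx, rfl⟩ := mem_image.1 hS
  rw [← h.card a x (ne_of_mem_erase hx).symm]
  refine dvd_of_eq (congrArg _ (Finset.ext fun y => ?_))
  simp only [mem_filter, mem_erase, mem_univ, and_true]
  exact ⟨fun hy => ⟨fun e => h.nm a x (e ▸ hy), h.tr a x y hy⟩, fun hy => hy.2 ▸ h.mem a y hy.1.symm⟩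

variable (G) in
/-- order of the pointwise stabiliser -/
noncomputable def K (S : Finset Ω) : ℕ := Nat.card (fixingSubgroup G (S : Set Ω))

theorem idx (S W : Finset Ω) (x : Ω) (h : ∀ g : G, (∀ y ∈ S, g • y = y) → g • x ∈ W) :
    K G S ≤ W.card * K G (insert x S) := by
  have e : (fixingSubgroup G ((insert x S : Finset Ω) : Set Ω)).subgroupOf (fixingSubgroup G (S : Set Ω)) =
      stabilizer (fixingSubgroup G (S : Set Ω)) x := Subgroup.ext fun g => by
    have := (mem_fixingSubgroup_iff G).1 g.2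
    simp only [Subgroup.mem_subgroupOf, mem_fixingSubgroup_iff, coe_insert, Set.mem_insert_iff, forall_eq_or_imp]
    exact and_iff_left this
  rw [K, K, ← Nat.card_congr (Subgroup.subgroupOfEquivOfLe (fixingSubgroup_antitone G Ω
    (coe_subset.2 (subset_insert x S)))).toEquiv, e, ← (stabilizer (fixingSubgroup G (S : Set Ω)) x).index_mul_card,
    index_stabilizer, ← Set.ncard_coe_finset]
  refine Nat.mul_le_mul_right _ (Set.ncard_le_ncard ?_)
  rintro _ ⟨g, rfl⟩
  exact h g ((mem_fixingSubgroup_iff G).1 g.2)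

theorem idx' (T : Finset Ω) : ∀ (w : ℕ) (S : Finset Ω), (∀ g : G, (∀ y ∈ S, g • y = y) → ∀ x ∈ T, g • x ∈ T) →
    (T \ S).card = w → K G S ≤ w.factorial * K G (S ∪ T)
  | 0, S, _, h => by rw [union_eq_left.2 (sdiff_eq_empty_iff_subset.1 (card_eq_zero.1 h))]; simp
  | w + 1, S, hT, h => by
    obtain ⟨x, hx⟩ := card_pos.1 (show 0 < (T \ S).card by omega)
    have h1 := idx (G := G) S (T \ S) x fun g hg => mem_sdiff.2 ⟨hT g hg x (mem_sdiff.1 hx).1, fun e =>
      (mem_sdiff.1 hx).2 (MulAction.injective g (hg _ e) ▸ e)⟩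
    have h2 := idx' T w (insert x S) (fun g hg => hT g fun y hy => hg y (mem_insert_of_mem hy)) (by
      rw [sdiff_insert, card_erase_of_mem hx, h]; rfl)
    rw [insert_union, ← union_insert, insert_eq_of_mem (mem_sdiff.1 hx).1] at h2
    rw [h] at h1
    rw [Nat.factorial_succ, mul_assoc]
    exact h1.trans (Nat.mul_le_mul_left _ h2)

variable (G) in
/-- the inductive bound -/
def Pr (c : ℕ) (S : Finset Ω) (e : ℕ) : Prop :=
  K G S * 2 ^ (Fintype.card Ω - S.card) ≤ Fintype.card Ω ^ e * c ^ (Fintype.card Ω - S.card)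

theorem Pr.of {c : ℕ} {S S' : Finset Ω} {e e' w u : ℕ} (h : Pr G c S' e') (hw : S'.card = S.card + w)
    (h1 : K G S ≤ u * K G S') (h2 : u * 2 ^ w * Fintype.card Ω ^ e' ≤ Fintype.card Ω ^ e * c ^ w) : Pr G c S e := by
  have := card_le_univ S'
  rw [Pr] at *
  rw [show Fintype.card Ω - S.card = w + (Fintype.card Ω - S'.card) by omega, pow_add, pow_add]
  calc _ ≤ u * K G S' * (2 ^ w * 2 ^ (Fintype.card Ω - S'.card)) := Nat.mul_le_mul_right _ h1
    _ = u * 2 ^ w * (K G S' * 2 ^ (Fintype.card Ω - S'.card)) := by ring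
    _ ≤ u * 2 ^ w * (Fintype.card Ω ^ e' * c ^ (Fintype.card Ω - S'.card)) := Nat.mul_le_mul_left _ h
    _ ≤ _ := by rw [← mul_assoc, ← mul_assoc]; exact Nat.mul_le_mul_right _ h2

variable {B : Ω → Ω → Finset Ω} {b c : ℕ} (h : Bl G B b) (hb : 2 ≤ b) (hc : ∀ w < b, w.factorial * 2 ^ w ≤ c ^ w)
include h hb hc

theorem step {S : Finset Ω} {a x : Ω} (ha : a ∈ S) (hx : x ∈ S) {e : ℕ} (hp : Pr G c (S ∪ B a x) e) : Pr G c S e := by
  refine hp.of (w := (B a x \ S).card) (by rw [add_comm, card_sdiff_add_card, union_comm])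
    (idx' _ _ S (fun g hg y hy => ?_) rfl) ?_
  · rwa [← h.eqv g, hg a ha, hg x hx] at hy
  · rw [mul_comm]
    refine Nat.mul_le_mul_left _ (hc _ ?_)
    by_cases e : a = x
    · rw [e, h.emp]; simp; omega
    · rw [← h.card a x e]
      exact card_lt_card ⟨sdiff_subset, fun hs => (mem_sdiff.1 (hs (h.mem a x e))).2 hx⟩

theorem multi {S : Finset Ω} {x : Ω} (hx : x ∈ S) {e : ℕ} (A : Finset Ω) (hA : A ⊆ S)
    (hp : Pr G c (S ∪ A.biUnion fun a => B a x) e) : Pr G c S e := by
  induction A using Finset.induction_on with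
  | empty => simpa using hp
  | insert a A _ ih =>
    refine ih ((subset_insert a A).trans hA) (step h hb hc (mem_union_left _ (hA (mem_insert_self a A)))
      (mem_union_left _ hx) ?_)
    rwa [biUnion_insert, union_comm (B a x), ← union_assoc] at hp

theorem main : ∀ (k : ℕ) (S : Finset Ω) (e : ℕ), Fintype.card Ω - S.card ≤ k → S.Nonempty →
    Fintype.card Ω + 1 ≤ 2 ^ e * (S.card + 1) → Pr G c S e := by
  have top : ∀ (S : Finset Ω) e, S.Nonempty → S = univ → Pr G c S e := by
    rintro _ e ⟨a, -⟩ rfl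
    have : fixingSubgroup G ((univ : Finset Ω) : Set Ω) = ⊥ := eq_bot_iff.2 fun g hg =>
      FaithfulSMul.eq_of_smul_eq_smul fun y : Ω => ((mem_fixingSubgroup_iff G).1 hg y (by simp)).trans (one_smul _ _).symm
    rw [Pr, K, this]
    simpa using Nat.one_le_pow e _ (Fintype.card_pos_iff.2 ⟨a⟩)
  intro k
  induction k with
  | zero => exact fun S e h1 h2 _ => top S e h2 (eq_univ_of_card S (by have := card_le_univ S; omega))
  | succ k ih =>
    intro S e h1 h2 h3
    by_cases hs : ∃ a ∈ S, ∃ x ∈ S, ¬ B a x ⊆ S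
    · obtain ⟨a, ha, x, hx, hs⟩ := hs
      have := card_lt_card (s := S) (t := S ∪ B a x) ⟨subset_union_left, fun e => hs (subset_union_right.trans e)⟩
      exact step h hb hc ha hx (ih _ e (by omega) (h2.mono subset_union_left)
        (h3.trans (Nat.mul_le_mul_left _ (by omega))))
    push Not at hs
    by_cases hu : S = univ
    · exact top S e h2 hu
    obtain ⟨x, hx⟩ : ∃ x, x ∉ S := by
      by_contra hn
      push Not at hn
      exact hu (eq_univ_of_forall hn)
    have hS := card_lt_card (ssubset_univ_iff.2 hu)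
    rw [card_univ] at hS
    obtain _ | e := e
    · omega
    have ne : ∀ a ∈ S, a ≠ x := fun a ha e => hx (e ▸ ha)
    have h4 := card_mul_le_card_mul (s := S) (t := (S.biUnion fun a => B a x).erase x) (fun a y => y ∈ B a x)
      (m := b - 1) (n := b - 1) (fun a ha => by
        rw [← h.card a x (ne a ha), ← card_erase_of_mem (h.mem a x (ne a ha))]
        refine card_le_card fun y hy => ?_
        simp only [bipartiteAbove, mem_filter, mem_erase, mem_biUnion] at hy ⊢
        exact ⟨⟨hy.1, a, ha, hy.2⟩, hy.2⟩) fun y hy => by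
        rw [← h.cov x y (ne_of_mem_erase hy).symm]
        exact card_le_card (filter_subset_filter _ (subset_univ S))
    have h5 := Nat.le_of_mul_le_mul_right h4 (by omega)
    have h6 : Disjoint (insert x S) ((S.biUnion fun a => B a x).erase x) := disjoint_left.2 fun y h1 h2 => by
      obtain ⟨a, ha, hy⟩ := mem_biUnion.1 (mem_of_mem_erase h2)
      exact hx (hs a ha y ((mem_insert.1 h1).resolve_left (ne_of_mem_erase h2)) (h.tr a x y hy ▸ h.mem a x (ne a ha)))
    have h7 := card_le_card (union_subset_union_right (s := insert x S) (erase_subset x (S.biUnion fun a => B a x)))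
    rw [card_union_of_disjoint h6, card_insert_of_notMem hx] at h7
    refine (multi h hb hc (mem_insert_self x S) S (subset_insert x S) (ih _ e (by omega)
      ⟨x, by simp⟩ (h3.trans ?_))).of (w := 1) (card_insert_of_notMem hx) (idx S univ x fun _ _ => mem_univ _) ?_
    · rw [pow_succ, mul_assoc]
      exact Nat.mul_le_mul_left _ (by omega)
    · have := hc 1 (by omega)
      rw [card_univ, pow_succ' _ e, mul_right_comm]
      exact Nat.mul_le_mul_left _ (by simpa using this)

end I0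

open I0

theorem exBl [IsMultiplyPretransitive G Ω 2] (a : Ω)
    (h : ¬ IsPreprimitive (stabilizer G a) (SubMulAction.ofStabilizer G a)) :
    ∃ (B : Ω → Ω → Finset Ω) (b r : ℕ), 2 ≤ b ∧ 2 ≤ r ∧ Fintype.card Ω = b * r + 1 ∧ Bl G B b := by
  classical
  obtain ⟨D, hD, hn⟩ : ∃ D : Set (SubMulAction.ofStabilizer G a), IsBlock (stabilizer G a) D ∧ ¬ IsTrivialBlock D := by
    by_contra hn
    push Not at hn
    haveI : IsPretransitive (stabilizer G a) (SubMulAction.ofStabilizer G a) := ⟨fun x y => by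
      obtain ⟨g, h1, h2⟩ := two (G := G) (Ne.symm x.2) (Ne.symm y.2)
      exact ⟨⟨g, h1⟩, Subtype.ext h2⟩⟩
    exact h ⟨fun hB => hn _ hB⟩
  rw [IsTrivialBlock, not_or, Set.not_subsingleton_iff] at hn
  obtain ⟨⟨x, hx, y, hy, hxy⟩, h2⟩ := hn
  obtain ⟨z, hz⟩ := (Set.ne_univ_iff_exists_notMem D).1 h2
  let E : Finset Ω := univ.filter fun u => ∃ v ∈ D, v.1 = u
  have hE : ∀ v : SubMulAction.ofStabilizer G a, v.1 ∈ E ↔ v ∈ D := fun v => by simp [E]
  have ha : a ∉ E := fun e => by
    obtain ⟨v, -, e⟩ := (mem_filter.1 e).2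
    exact v.2 e
  obtain ⟨B, hB, e⟩ := bl_of (G := G) ha ((hE x).2 hx) fun g hg u hu hgu w hw => by
    obtain ⟨u, hu', rfl⟩ := (mem_filter.1 hu).2
    obtain ⟨w, hw', rfl⟩ := (mem_filter.1 hw).2
    have := hD.smul_eq_of_mem (g := ⟨g, hg⟩) hu' ((hE (_ • u)).1 hgu)
    exact (hE ((⟨g, hg⟩ : stabilizer G a) • w)).2 (this ▸ Set.smul_mem_smul_set hw')
  obtain ⟨r, hr⟩ := dvd hB a
  have h1 : 1 < E.card := one_lt_card.2 ⟨_, (hE x).2 hx, _, (hE y).2 hy, fun e => hxy (Subtype.ext e)⟩
  have h3 := card_le_univ (insert a (insert z.1 E))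
  rw [card_insert_of_notMem (by simpa [ha] using Ne.symm z.2), card_insert_of_notMem (mt (hE z).1 hz)] at h3
  refine ⟨B, _, r, h1, ?_, by omega, hB⟩
  obtain _ | _ | r := r <;> omega

theorem ia (a : Ω) {B : Ω → Ω → Finset Ω} {b : ℕ} (h : Bl G B b) (hb : 2 ≤ b) :
    IA (Fintype.card Ω) b (Nat.card G) := fun c e hc he => by
  have h1 := main h hb hc _ {a} e le_rfl ⟨a, by simp⟩ (by simpa [pow_succ] using he)
  have h2 := idx (G := G) ∅ univ a fun _ _ => mem_univ _
  rw [K, coe_empty, fixingSubgroup_empty, Subgroup.card_top, card_univ] at h2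
  rw [Pr, card_singleton] at h1
  rw [pow_succ', mul_assoc]
  exact (Nat.mul_le_mul_right _ h2).trans (by rw [mul_assoc]; exact Nat.mul_le_mul_left _ h1)

theorem imp [IsMultiplyPretransitive G Ω 2] (a : Ω)
    (h : ¬ IsPreprimitive (stabilizer G a) (SubMulAction.ofStabilizer G a)) :
    IB (Fintype.card Ω) (Nat.card G) := by
  obtain ⟨B, b, r, h1, h2, h3, h4⟩ := exBl a h
  exact ⟨b, r, h1, h2, h3, ia a h4 h1, ibb h4 h1 h3, ic h4 h1⟩

end Cfsg.Agent.P4
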