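import Cfsg.Agent.P4.Defs

/-!
Doubly transitive groups with imprimitive point stabiliser: two bounds for the order.
-/

set_option autoImplicit false

namespace Cfsg.Agent.P4.I1
open Finset

variable {G Ω : Type*} [Group G] [Finite G] [Fintype Ω] [DecidableEq Ω] [MulAction G Ω]

theorem idx (Y Z : Subgroup G) {S : Type*} [Finite S] (f : Y → S)
    (hf : ∀ g h : Y, f g = f h → (g : G)⁻¹ * h ∈ Z) :
    Nat.card Y ≤ Nat.card S * Nat.card (Y ⊓ Z : Subgroup G) := by
  rw [← Nat.card_prod]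
  refine Nat.card_le_card_of_injective (fun g => (f g,
    ⟨((Function.invFun f (f g) : Y) : G)⁻¹ * g,
    Y.mul_mem (Y.inv_mem (Subtype.prop _)) g.2, hf _ _ (Function.invFun_eq ⟨g, rfl⟩)⟩)) fun g h e => ?_
  have e2 := congrArg (fun z => z.2.1) e
  simp only [show f g = f h from congrArg Prod.fst e] at e2
  exact Subtype.ext (mul_left_cancel e2)

/-- `R` contains all pairs of points in a common orbit -/
def Cv (Y : Subgroup G) (R : Finset (Ω × Ω)) : Prop :=
  ∀ g ∈ Y, ∀ x, g • x ≠ x → (x, g • x) ∈ R ∨ (g • x, x) ∈ R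

theorem card_le [FaithfulSMul G Ω] (R : Finset (Ω × Ω)) :
    ∀ Y : Subgroup G, Cv Y R → Nat.card Y ≤ 2 ^ #R := by
  classical
  induction R using Finset.strongInduction with | _ R ih => ?_
  intro Y h
  by_cases e : ∀ g ∈ Y, ∀ x : Ω, g • x = x
  · rw [show Y = ⊥ from eq_bot_iff.2 fun g hg => eq_of_smul_eq_smul (α := Ω) (by simpa using e g hg)]
    simp [Nat.one_le_two_pow]
  push Not at e
  obtain ⟨g, hg, x, hx⟩ := e
  let O : Finset Ω := {y | ∃ g ∈ Y, g • x = y}
  have h1 := idx Y (MulAction.stabilizer G x) (S := O) (fun g => ⟨(g : G) • x, by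
    simp only [O, mem_filter, mem_univ, true_and]; exact ⟨g, g.2, rfl⟩⟩) fun g h e => by
      rw [MulAction.mem_stabilizer_iff, mul_smul, inv_smul_eq_iff]; exact (congrArg Subtype.val e).symm
  have h2 : #(O.erase x) ≤ #{q ∈ R | ¬(q.1 ≠ x ∧ q.2 ≠ x)} := by
    refine card_le_card_of_surjOn (fun q => if q.1 = x then q.2 else q.1) fun y hy => ?_
    simp only [O, coe_erase, Set.mem_diff, mem_coe, mem_filter, mem_univ, true_and,
      Set.mem_singleton_iff] at hy
    obtain ⟨⟨g, hg, rfl⟩, n⟩ := hy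
    rcases h g hg x n with e | e
    exacts [⟨(x, g • x), by simpa using e, by simp⟩, ⟨(g • x, x), by simpa using e, by simp [n]⟩]
  have h3 := ih {q ∈ R | q.1 ≠ x ∧ q.2 ≠ x} (filter_ssubset.2 <| by
    rcases h g hg x hx with e | e <;> exact ⟨_, e, by simp⟩) (Y ⊓ MulAction.stabilizer G x)
    fun g hg y hy => by
      have n1 : y ≠ x := by rintro rfl; exact hy hg.2
      have n2 : g • y ≠ x := fun e => n1 (smul_left_cancel g (e.trans hg.2.symm))
      simpa [n1, n2] using h g hg.1 y hy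
  rw [← card_filter_add_card_filter_not (s := R) fun q => q.1 ≠ x ∧ q.2 ≠ x, pow_add, mul_comm]
  refine h1.trans (Nat.mul_le_mul ?_ h3)
  rw [Nat.card_eq_fintype_card, Fintype.card_coe]
  have := pred_card_le_card_erase (s := O) (a := x)
  exact le_trans (by have := @Nat.lt_two_pow_self #(O.erase x); omega) (Nat.pow_le_pow_right two_pos h2)

theorem avg {ι : Type*} (R : Finset ι) {I : Finset Ω} (hI : I.Nonempty) (p : Ω → ι → Prop)
    [∀ a b, Decidable (p a b)] {c N : ℕ} (h : ∀ q ∈ R, #{a ∈ I | p a q} ≤ c) (hN : #R ≤ N) :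
    ∃ a ∈ I, #{q ∈ R | p a q} ≤ N * c / #I := by
  obtain ⟨a, ha, m⟩ := exists_min_image I (fun a => #{q ∈ R | p a q}) hI
  refine ⟨a, ha, (Nat.le_div_iff_mul_le hI.card_pos).2 ?_⟩
  rw [mul_comm]
  exact (card_mul_le_card_mul p m h).trans (Nat.mul_le_mul_right _ hN)

theorem start : ∃ R : Finset (Ω × Ω), #R = Fintype.card Ω * (Fintype.card Ω - 1) / 2 ∧
    (∀ q ∈ R, q.1 ≠ q.2) ∧ ∀ x y, x ≠ y → (x, y) ∈ R ∨ (y, x) ∈ R := by
  letI := LinearOrder.lift' _ (Fintype.equivFin Ω).injective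
  exact ⟨{q ∈ (univ : Finset Ω) ×ˢ (univ : Finset Ω) | q.1 < q.2}, by rw [card_product_filter_lt, Nat.choose_two_right, card_univ],
    fun q hq => (mem_filter.1 hq).2.ne, fun x y e => by simpa using e.lt_or_gt⟩

variable {B : Ω → Ω → Finset Ω} {b r : ℕ}

theorem step (h : Bl G B b) (hb : 2 ≤ b) (hn : Fintype.card Ω = b * r + 1) (Y : Subgroup G) (a : Ω) :
    ∃ Z ≤ Y, Nat.card Y ≤ Fintype.card Ω * r.factorial * Nat.card Z ∧
      ∀ g ∈ Z, ∀ x, B a (g • x) = B a x := by
  let Z : Subgroup G :=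
    { carrier := {g | ∀ x, B a (g • x) = B a x}
      mul_mem' := fun hg hh x => by rw [mul_smul, hg, hh]
      one_mem' := fun x => by rw [one_smul]
      inv_mem' := fun {g} hg x => by rw [← hg, smul_inv_smul] }
  have h1 := idx Y (MulAction.stabilizer G a) (fun g => (g : G) • a) fun g h e => by
    rw [MulAction.mem_stabilizer_iff, mul_smul, inv_smul_eq_iff]; exact e.symm
  have e1 : ∀ g : G, g • a = a → ∀ x, (B a x).image (g • ·) = B a (g • x) := fun g hg x => by
    ext y
    rw [← smul_inv_smul g y, ← hg, h.eqv, hg]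
    simp only [mem_image, smul_left_cancel_iff, exists_eq_right]
  let T := (univ.erase a).image (B a)
  have h2 := idx (Y ⊓ MulAction.stabilizer G a) Z (S := T ↪ T) (fun g => ⟨fun S => ⟨S.1.image
    ((g : G) • ·), by
      obtain ⟨_, hS⟩ := S
      obtain ⟨x, hx, rfl⟩ := mem_image.1 hS
      exact mem_image.2 ⟨(g : G) • x, by
        simpa using fun e => (mem_erase.1 hx).1 (smul_left_cancel g.1 (e.trans g.2.2.symm)),
        (e1 g g.2.2 x).symm⟩⟩, fun S S' e =>
      Subtype.ext (image_injective (MulAction.injective g.1) (congrArg Subtype.val e))⟩)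
    fun g k e x => by
      have hg : (g : G)⁻¹ • a = a := inv_smul_eq_iff.2 g.2.2.symm
      by_cases n : x = a
      · rw [n, mul_smul, show (k : G) • a = a from k.2.2, hg]
      have := congrArg Subtype.val (DFunLike.congr_fun e ⟨B a x, mem_image_of_mem _ (by simpa using n)⟩)
      rw [mul_smul, ← e1 _ hg, ← e1 _ k.2.2]
      refine (congrArg (image _) this.symm).trans ?_
      change image _ (image _ _) = _
      rw [e1 _ g.2.2, e1 _ hg, inv_smul_smul]
  have h3 : #T = r := by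
    have := card_eq_sum_card_image (B a) (univ.erase a)
    rw [sum_congr rfl (g := fun _ => b) fun S hS => ?_, sum_const, card_erase_of_mem (mem_univ a),
      card_univ, hn, smul_eq_mul, mul_comm _ b] at this
    · exact (Nat.eq_of_mul_eq_mul_left (by omega) this).symm
    obtain ⟨x, hx, rfl⟩ := mem_image.1 hS
    rw [← h.card a x (mem_erase.1 hx).1.symm]
    congr 1
    ext y
    simp only [mem_filter, mem_erase, mem_univ, and_true]
    exact ⟨fun ⟨n, e⟩ => e ▸ h.mem a y n.symm, fun e => ⟨fun n => h.nm a x (n ▸ e), h.tr a x y e⟩⟩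
  rw [Nat.card_eq_fintype_card (α := T ↪ T), Fintype.card_embedding_eq, Fintype.card_coe, h3,
    Nat.descFactorial_self] at h2
  rw [Nat.card_eq_fintype_card (α := Ω)] at h1
  exact ⟨Y ⊓ MulAction.stabilizer G a ⊓ Z, inf_le_left.trans inf_le_left, h1.trans (by rw [mul_assoc]; gcongr), fun g hg => hg.2⟩

end Cfsg.Agent.P4.I1

namespace Cfsg.Agent.P4
open Finset I1

variable {G Ω : Type*} [Group G] [Finite G] [Fintype Ω] [DecidableEq Ω] [MulAction G Ω]
  [FaithfulSMul G Ω] {B : Ω → Ω → Finset Ω} {b r : ℕ}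

theorem ibb (h : Bl G B b) (hb : 2 ≤ b) (hn : Fintype.card Ω = b * r + 1) :
    IBB (Fintype.card Ω) b r (Nat.card G) := by
  intro j
  suffices ∃ (Y : Subgroup G) (A : Finset Ω) (R : Finset (Ω × Ω)),
      Nat.card G ≤ (Fintype.card Ω * r.factorial) ^ j * Nat.card Y ∧ #R ≤ Qs (Fintype.card Ω) b j ∧
      Cv Y R ∧ ∀ q ∈ R, q.1 ≠ q.2 ∧ #A = j ∧ ∀ a ∈ A, q.2 ∈ B a q.1 by
    obtain ⟨Y, -, R, h1, h2, h3, -⟩ := this
    exact h1.trans (Nat.mul_le_mul_left _ ((card_le R Y h3).trans (Nat.pow_le_pow_right two_pos h2)))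
  induction j with
  | zero =>
    obtain ⟨R, h1, h2, h3⟩ := start (Ω := Ω)
    exact ⟨⊤, ∅, R, by simp, h1.le, fun g _ x e => h3 _ _ e.symm, fun q hq => ⟨h2 q hq, rfl, by simp⟩⟩
  | succ j ih =>
    obtain ⟨Y, A, R, h1, h2, h3, h4⟩ := ih
    rcases R.eq_empty_or_nonempty with rfl | ⟨q, hq⟩
    · refine ⟨Y, A, ∅, h1.trans (Nat.mul_le_mul_right _ (Nat.pow_le_pow_right ?_ j.le_succ)),
        by simp, h3, by simp⟩
      exact Nat.mul_pos (by omega) r.factorial_pos
    have hA := (h4 q hq).2.1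
    obtain ⟨a, ha, h5⟩ := avg R (I := Aᶜ) ⟨q.1, mem_compl.2 fun e => by
      simpa [h.emp] using (h4 q hq).2.2 _ e⟩ (fun a q => q.2 ∈ B a q.1) (c := b - 1 - j) (fun q hq => by
        rw [← h.cov _ _ (h4 q hq).1, ← hA, ← card_sdiff_of_subset fun a ha => by
          simpa using (h4 q hq).2.2 a ha]
        exact card_le_card fun a => by simp +contextual) h2
    obtain ⟨Z, z1, z2, z3⟩ := step h hb hn Y a
    refine ⟨Z, insert a A, _, h1.trans (by rw [pow_succ, mul_assoc]; gcongr),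
      by rwa [card_compl, hA] at h5, fun g hg x hx => ?_, fun q hq => ?_⟩
    · have n : ∀ y, B a y = B a a → a = y := fun y e => by
        by_contra n; simpa [e, h.emp] using h.mem a y n
      have n1 : a ≠ x := by rintro rfl; exact hx (n _ (z3 g hg _)).symm
      have n2 : a ≠ g • x := fun e => n1 (n _ (by rw [← z3 g hg, ← e]))
      exact (h3 g (z1 hg) x hx).imp (fun m => mem_filter.2 ⟨m, z3 g hg x ▸ h.mem a _ n2⟩)
        fun m => mem_filter.2 ⟨m, (z3 g hg x).symm ▸ h.mem a _ n1⟩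
    · obtain ⟨hq, e⟩ := mem_filter.1 hq
      exact ⟨(h4 q hq).1, by rw [card_insert_of_notMem (mem_compl.1 ha), hA],
        by simpa [e] using (h4 q hq).2.2⟩

theorem ic (h : Bl G B b) (hb : 2 ≤ b) : IC (Fintype.card Ω) b (Nat.card G) := by
  intro D j hD
  obtain ⟨A, -, hA⟩ := exists_subset_card_eq (s := (univ : Finset Ω)) hD
  suffices ∃ (Y : Subgroup G) (R : Finset (Ω × Ω)),
      Nat.card G ≤ Fintype.card Ω ^ (D + b + j) * Nat.card Y ∧ #R ≤ Cs (Fintype.card Ω) D j ∧
      Cv Y R ∧ (∀ q ∈ R, q.1 ≠ q.2 ∧ q.1 ∉ A ∧ q.2 ∉ A) ∧ ∀ g ∈ Y, ∀ a ∈ A, g • a = a by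
    obtain ⟨Y, R, h1, h2, h3, -⟩ := this
    exact h1.trans (Nat.mul_le_mul_left _ ((card_le R Y h3).trans (Nat.pow_le_pow_right two_pos h2)))
  induction j with
  | zero =>
    obtain ⟨R, h1, h2, h3⟩ := start (Ω := Ω)
    have := idx ⊤ (fixingSubgroup G (A : Set Ω)) (fun g (a : A) => (g : G) • (a : Ω)) fun g k e =>
      (mem_fixingSubgroup_iff G).2 fun a ha => by
        rw [mul_smul, inv_smul_eq_iff]; exact (congrFun e ⟨a, ha⟩).symm
    refine ⟨fixingSubgroup G (A : Set Ω), {q ∈ R | q.1 ∉ A ∧ q.2 ∉ A}, by simpa [hA] using this,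
      (card_filter_le _ _).trans h1.le, fun g hg x e => ?_,
      fun q hq => ⟨h2 q (mem_filter.1 hq).1, (mem_filter.1 hq).2⟩,
      fun g hg => (mem_fixingSubgroup_iff G).1 hg⟩
    rw [mem_fixingSubgroup_iff] at hg
    have n1 : x ∉ A := fun m => e (hg _ m)
    have n2 : g • x ∉ A := fun m => e (smul_left_cancel g (hg _ m))
    simpa [n1, n2] using h3 _ _ e.symm
  | succ j ih =>
    obtain ⟨Y, R, h1, h2, h3, h4, h6⟩ := ih
    obtain ⟨c, -, h5⟩ := avg R (I := univ) (card_pos.1 (by rw [card_univ]; omega))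
      (fun c q => ∀ a ∈ A, c ∈ B a q.1 ↔ c ∈ B a q.2) (c := Fintype.card Ω - D) (fun ⟨x, y⟩ hq => by
        obtain ⟨n, hx, hy⟩ := h4 _ hq
        have e1 := card_mul_le_card_mul (s := {a ∈ A | y ∉ B a x})
          (t := {c | c ≠ x ∧ ¬ ∀ a ∈ A, c ∈ B a x ↔ c ∈ B a y}) (fun a c => c ∈ B a x) (m := b - 1)
          (n := b - 1) (fun a ha => by
            obtain ⟨ha, m⟩ := mem_filter.1 ha
            have nx : a ≠ x := fun e => hx (e ▸ ha)
            rw [← h.card a x nx, ← card_erase_of_mem (h.mem a x nx)]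
            refine card_le_card fun c hc => ?_
            obtain ⟨c1, c2⟩ := mem_erase.1 hc
            simp only [bipartiteAbove, mem_filter, mem_univ, true_and]
            exact ⟨⟨c1, fun e => m (by
              rw [← h.tr a x c c2, h.tr a y c ((e a ha).1 c2)]
              exact h.mem a y fun e => hy (e ▸ ha))⟩, c2⟩)
          fun c hc => by
            rw [← h.cov x c (mem_filter.1 hc).2.1.symm]
            exact card_le_card fun a => by simp +contextual [bipartiteBelow]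
        have e2 := Nat.le_of_mul_le_mul_right e1 (by omega)
        have e3 := card_filter_add_card_filter_not (s := A) fun a => y ∈ B a x
        have e4 : #{a ∈ A | y ∈ B a x} ≤ b - 1 :=
          h.cov x y n ▸ card_le_card fun a => by simp +contextual
        have e5 := card_filter_add_card_filter_not (s := univ)
          fun c => ∀ a ∈ A, c ∈ B a x ↔ c ∈ B a y
        have e6 : #{c | c ≠ x ∧ ¬ ∀ a ∈ A, c ∈ B a x ↔ c ∈ B a y} ≤
            #{c | ¬ ∀ a ∈ A, c ∈ B a x ↔ c ∈ B a y} :=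
          card_le_card fun a => by simp only [mem_filter]; tauto
        rw [card_univ] at e5
        simp only
        omega) h2
    have := idx Y (MulAction.stabilizer G c) (fun g => (g : G) • c) fun g h e => by
      rw [MulAction.mem_stabilizer_iff, mul_smul, inv_smul_eq_iff]; exact e.symm
    rw [Nat.card_eq_fintype_card (α := Ω)] at this
    refine ⟨Y ⊓ MulAction.stabilizer G c, _, h1.trans (by
      rw [← add_assoc, pow_succ, mul_assoc]; gcongr), h5, fun g hg x hx => ?_,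
      fun q hq => h4 q (mem_filter.1 hq).1, fun g hg => h6 g hg.1⟩
    have e : ∀ a ∈ A, c ∈ B a x ↔ c ∈ B a (g • x) := fun a ha => by
      rw [← h.eqv g, h6 g hg.1 a ha, show g • c = c from hg.2]
    exact (h3 g hg.1 x hx).imp (fun m => mem_filter.2 ⟨m, e⟩)
      fun m => mem_filter.2 ⟨m, fun a ha => (e a ha).symm⟩

end Cfsg.Agent.P4
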