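import Cfsg.Agent.P4.Defs
import Cfsg.Agent.H2.Ln7

/-!
The Sylow bound for primitive groups that are not doubly transitive.
-/

set_option autoImplicit false

namespace Cfsg.Agent.P4

open Equiv MulAction Cfsg.Agent.H2.Ln

namespace U

theorem syl {G X : Type} [Group G] [MulAction G X] [Fintype X] [DecidableEq X]
    (hμ : MinDeg G X 1) {p M : ℕ} (hp : p.Prime)
    (hM : ∀ σ ∈ clo G X, σ ≠ 1 → σ ^ p = 1 → M ≤ σ.support.card) :
    ∃ s, (Nat.card G).factorization p ≤ (Fintype.card X / p).factorial.factorization p + s ∧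
      s * M ≤ Fintype.card X ∧ (s = 0 ∨ ∃ σ ∈ clo G X, σ ≠ 1 ∧ σ ^ p = 1) := by
  classical
  have : Fact p.Prime := ⟨hp⟩
  have := hμ.finite le_rfl
  obtain ⟨P⟩ : Nonempty (Sylow p G) := inferInstance
  obtain ⟨u, E, hEP, hE, u1, u2, u3⟩ := exists_sys (X := X) hp (P : Subgroup G) P.isPGroup'
  rw [Nat.card_eq_fintype_card] at hE
  have KL : ∀ x : X, ∀ e ∈ E, ∀ h ∈ E, h • x ≠ x → ∃ j, h ^ j • x = e • x := by
    intro x e he h hh hx
    obtain ⟨i, hi⟩ := u3 e he x
    obtain ⟨s, hs⟩ := u3 h hh x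
    have h1 : ∀ j, h ^ j • x = u x ^ (s * j) • x := by
      intro j
      induction j with
      | zero => simp
      | succ j ih =>
        rw [pow_succ', mul_smul, ih, u2 h (hEP hh), hs, ← mul_smul, ← pow_add, mul_add, mul_one]
    have h2 : s.Coprime p := by
      rw [Nat.coprime_comm, hp.coprime_iff_not_dvd]
      intro h3
      rw [hs, pow_smul_mod (u1 x), Nat.mod_eq_zero_of_dvd h3] at hx
      simp at hx
    obtain ⟨j, -, hj⟩ := Nat.exists_mul_mod_eq_of_coprime i h2 hp.ne_zero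
    exact ⟨j, by rw [h1, pow_smul_mod (u1 x), hj, hi, ← pow_smul_mod (u1 x)]⟩
  let St : X → Subgroup G := fun x => E ⊓ stabilizer G x
  have mSt : ∀ x g, g ∈ St x ↔ g ∈ E ∧ g • x = x := fun x g => Iff.rfl
  have St1 : ∀ e ∈ E, ∀ x, St (e • x) = St x := by
    have : ∀ e ∈ E, ∀ x, St x ≤ St (e • x) := fun e he x g hg => by
      obtain ⟨i, hi⟩ := u3 e he x
      refine (mSt _ _).2 ⟨hg.1, ?_⟩
      rw [hi, u2 g (hEP hg.1), ((mSt _ _).1 hg).2]
    intro e he x
    exact le_antisymm (by simpa using this e⁻¹ (E.inv_mem he) (e • x)) (this e he x)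
  have fib0 : ∀ a, St a ≠ E → ∃ σ ∈ clo G X, σ ≠ 1 ∧ σ ^ p = 1 ∧
      σ.support.card = (Finset.univ.filter fun x => St x = St a).card := by
    intro a ha
    obtain ⟨e, he, hea⟩ : ∃ e ∈ E, e • a ≠ a := by
      by_contra h
      push Not at h
      exact ha (le_antisymm inf_le_left fun g hg => ⟨hg, h g hg⟩)
    let σ : Perm X :=
      { toFun := fun x => if St x = St a then e • x else x
        invFun := fun x => if St x = St a then e⁻¹ • x else x
        left_inv := fun x => by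
          by_cases h : St x = St a
          · simp [h, St1 e he]
          · simp [h]
        right_inv := fun x => by
          by_cases h : St x = St a
          · simp [h, St1 _ (E.inv_mem he)]
          · simp [h] }
    have s1 : ∀ x, St x = St a → σ x = e • x := fun x h => if_pos h
    have s2 : ∀ x, St x ≠ St a → σ x = x := fun x h => if_neg h
    have s3 : ∀ x, St x = St a → e • x ≠ x := fun x h h1 =>
      hea ((mSt _ _).1 (h ▸ (mSt _ _).2 ⟨he, h1⟩)).2
    have s4 : σ.support = Finset.univ.filter fun x => St x = St a := by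
      ext x
      simp only [Perm.mem_support, Finset.mem_filter, Finset.mem_univ, true_and]
      exact ⟨fun h => by_contra fun h1 => h (s2 x h1), fun h => s1 x h ▸ s3 x h⟩
    have s5 : ∀ x y, St x = St a → St y ≠ St a → ∃ g : G, g • x = e • x ∧ g • y = y := by
      intro x y hx hy
      by_cases h : ∃ h ∈ St y, h • x ≠ x
      · obtain ⟨h, h1, h2⟩ := h
        obtain ⟨j, hj⟩ := KL x e he h h1.1 h2
        exact ⟨h ^ j, hj, ((St y).pow_mem h1 j).2⟩
      · push Not at h
        refine absurd (le_antisymm (fun g hg => ?_) fun g hg => ?_) (hx ▸ hy)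
        · exact ⟨hg.1, h g hg⟩
        · refine ⟨hg.1, by_contra fun h1 => s3 x hx ?_⟩
          obtain ⟨j, hj⟩ := KL y e he g hg.1 h1
          have h2 := h ((g ^ j)⁻¹ * e) ((mSt _ _).2 ⟨E.mul_mem (E.inv_mem (E.pow_mem hg.1 j)) he, by
            rw [mul_smul, ← hj, inv_smul_smul]⟩)
          rw [mul_smul, inv_smul_eq_iff] at h2
          exact h2.trans ((St x).pow_mem hg j).2
    have s6 : σ ∈ clo G X := by
      intro x y
      by_cases hx : St x = St a <;> by_cases hy : St y = St a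
      · exact ⟨e, (s1 x hx).symm, (s1 y hy).symm⟩
      · rw [s1 x hx, s2 y hy]; exact s5 x y hx hy
      · rw [s2 x hx, s1 y hy]
        obtain ⟨g, h1, h2⟩ := s5 y x hy hx
        exact ⟨g, h2, h1⟩
      · exact ⟨1, by rw [s2 x hx, one_smul], by rw [s2 y hy, one_smul]⟩
    have s7 : σ ≠ 1 := fun h => hea (by rw [← s1 a rfl, h]; rfl)
    have s8 : σ ^ p = 1 := by
      ext x
      by_cases hx : St x = St a
      · have h1 : ∀ m, (σ ^ m) x = e ^ m • x := by
          intro m
          induction m with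
          | zero => simp
          | succ m ih =>
            rw [pow_succ', pow_succ', Perm.mul_apply, ih, mul_smul,
              s1 _ ((St1 _ (E.pow_mem he m) x).trans hx)]
        obtain ⟨s, hs⟩ := u3 e he x
        have h2 : ∀ j, e ^ j • x = u x ^ (s * j) • x := by
          intro j
          induction j with
          | zero => simp
          | succ j ih =>
            rw [pow_succ', mul_smul, ih, u2 e (hEP he), hs, ← mul_smul, ← pow_add, mul_add,
              mul_one]
        rw [h1, h2, pow_smul_mod (u1 x)]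
        simp
      · exact Perm.pow_apply_eq_self_of_apply_eq_self (s2 x hx) p
    exact ⟨σ, s6, s7, s8, congrArg _ s4⟩
  have fib : ∀ a, St a ≠ E → M ≤ (Finset.univ.filter fun x => St x = St a).card := by
    intro a ha
    obtain ⟨σ, c1, c2, c3, c4⟩ := fib0 a ha
    exact c4 ▸ hM σ c1 c2 c3
  let T : Finset (Subgroup G) := (Finset.univ.filter fun x => St x ≠ E).image St
  have t1 : T.card * M ≤ Fintype.card X := by
    have h1 := Finset.card_eq_sum_card_fiberwise (s := Finset.univ.filter fun x => St x ≠ E)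
      (t := T) (f := St) fun x hx => Finset.mem_image_of_mem _ hx
    refine le_trans ?_ (h1.ge.trans (Finset.card_le_univ _))
    rw [← smul_eq_mul]
    refine Finset.card_nsmul_le_sum _ _ _ fun S hS => ?_
    obtain ⟨a, ha, rfl⟩ := Finset.mem_image.1 hS
    have ha' := (Finset.mem_filter.1 ha).2
    refine (fib a ha').trans (Finset.card_le_card fun x hx => ?_)
    simp only [Finset.mem_filter, Finset.mem_univ, true_and] at hx ⊢
    exact ⟨hx ▸ ha', hx⟩
  have t2 : Nat.card E ≤ p ^ T.card := by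
    have h1 := Subgroup.relIndex_iInf_le (L := E) fun S : T => (S : Subgroup G)
    have h2 : (⨅ S : T, (S : Subgroup G)).relIndex E = Nat.card E := by
      rw [← Subgroup.inf_relIndex_right, ← Subgroup.relIndex_bot_left]
      congr 1
      rw [eq_bot_iff]
      intro g hg
      refine hμ.eq_one ∅ (by simp) fun x _ => ?_
      by_cases hx : St x = E
      · exact ((mSt _ _).1 (hx ▸ hg.2)).2
      · exact (Subgroup.mem_iInf.1 hg.1 ⟨St x, Finset.mem_image_of_mem _ (by simpa using hx)⟩).2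
    rw [h2] at h1
    refine h1.trans ?_
    rw [← Fintype.card_coe T, ← Finset.card_univ]
    refine Finset.prod_le_pow_card _ _ _ fun ⟨S, hS⟩ _ => ?_
    obtain ⟨a, -, rfl⟩ := Finset.mem_image.1 hS
    change (E ⊓ stabilizer G a).relIndex E ≤ p
    rw [Subgroup.inf_relIndex_left, ← H1.Basic.card_orbit_eq_relIndex, Nat.card_coe_set_eq]
    refine (Set.ncard_le_ncard (t := (fun i => u a ^ i • a) '' Set.Iio p) ?_).trans
      ((Set.ncard_image_le (Set.finite_Iio p)).trans (by rw [Set.ncard_Iio_nat]))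
    rintro _ ⟨e, rfl⟩
    obtain ⟨i, hi⟩ := u3 e e.2 a
    exact ⟨i % p, Nat.mod_lt _ hp.pos, (pow_smul_mod (u1 a) i).symm.trans hi.symm⟩
  have t3 : Nat.card E * E.relIndex P = p ^ (Nat.card G).factorization p := by
    rw [← P.card_eq_multiplicity, ← Subgroup.relIndex_bot_left, ← Subgroup.relIndex_bot_left]
    exact Subgroup.relIndex_mul_relIndex _ _ _ bot_le hEP
  obtain ⟨b, -, hb⟩ := (Nat.dvd_prime_pow hp).1 (Dvd.intro_left _ t3)
  rw [hb] at hE t3
  have t4 := (hp.pow_dvd_iff_le_factorization (Nat.factorial_ne_zero _)).1 hE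
  have t5 : (Nat.card G).factorization p ≤ T.card + b := by
    rw [← Nat.pow_le_pow_iff_right hp.one_lt, ← t3, pow_add]
    exact Nat.mul_le_mul_right _ t2
  refine ⟨T.card, by omega, t1, ?_⟩
  rcases T.eq_empty_or_nonempty with h | ⟨S, hS⟩
  · left; rw [h]; rfl
  · obtain ⟨a, ha, -⟩ := Finset.mem_image.1 hS
    obtain ⟨σ, c1, c2, c3, -⟩ := fib0 a (Finset.mem_filter.1 ha).2
    exact Or.inr ⟨σ, c1, c2, c3⟩

/-- Transport of a faithful action to a permutation group on `Fin n`. -/
theorem transport (G Ω : Type*) [Group G] [Fintype Ω] [DecidableEq Ω] [MulAction G Ω]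
    [FaithfulSMul G Ω] :
    ∃ H : Subgroup (Perm (Fin (Fintype.card Ω))), Nat.card H = Nat.card G ∧
      (IsPreprimitive G Ω → IsPreprimitive H (Fin (Fintype.card Ω))) ∧
      (IsMultiplyPretransitive H (Fin (Fintype.card Ω)) 2 → IsMultiplyPretransitive G Ω 2) ∧
      (alternatingGroup (Fin (Fintype.card Ω)) ≤ H →
        alternatingGroup Ω ≤ (toPermHom G Ω).range) := by
  let e := Fintype.equivFin Ω
  let ψ : G →* Perm (Fin (Fintype.card Ω)) :=
    (e.permCongrHom : Perm Ω →* _).comp (toPermHom G Ω)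
  have hψ : ∀ g x, ψ g (e x) = e (g • x) := fun g x => by simp [ψ]
  have inj : Function.Injective ψ := e.permCongrHom.injective.comp toPerm_injective
  refine ⟨ψ.range, (Nat.card_congr (MonoidHom.ofInjective inj).toEquiv).symm, fun hp => ?_,
    fun h => ?_, fun h σ hσ => ?_⟩
  · let φ : G → ψ.range := fun g => ⟨ψ g, g, rfl⟩
    let f : Ω →ₑ[φ] Fin (Fintype.card Ω) := ⟨e, fun g x => (hψ g x).symm⟩
    exact IsPreprimitive.of_surjective (f := f) e.surjective
  · rw [is_two_pretransitive_iff] at h ⊢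
    intro a b c d hab hcd
    obtain ⟨⟨_, g, rfl⟩, h1, h2⟩ := h (e.injective.ne hab) (e.injective.ne hcd)
    exact ⟨g, e.injective ((hψ g a).symm.trans h1), e.injective ((hψ g b).symm.trans h2)⟩
  · obtain ⟨g, hg⟩ := h (x := e.permCongr σ) (by
      rw [Perm.mem_alternatingGroup, Perm.sign_permCongr]; exact hσ)
    exact ⟨g, e.permCongr.injective hg⟩

end U

/-- The Jordan-Manning lemma, as a hypothesis. -/
def JM : Prop := ∀ {Ω : Type} [Fintype Ω] [DecidableEq Ω] {X : Subgroup (Perm Ω)}, Cl2 X →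
  IsPreprimitive X Ω → X ≠ ⊤ → ∀ {p t : ℕ}, p.Prime → t < p →
  (∀ σ ∈ X, σ ≠ 1 → σ ^ p = 1 → t * p ≤ σ.support.card) → ∀ {g : Perm Ω}, g ∈ X → g ≠ 1 →
  g ^ p = 1 → g.support.card = t * p → Fintype.card Ω ≤ t * p + t * (t - 1)

theorem U.uni0 (jm : JM) {G X : Type} [Group G] [MulAction G X] [Fintype X] [DecidableEq X]
    (hμ : MinDeg G X 1) [IsPreprimitive G X] (h2 : ¬ IsMultiplyPretransitive G X 2) :
    UB (Fintype.card X) (Nat.card G) := by
  classical
  have := hμ.finite le_rfl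
  refine ⟨Nat.card_pos.ne', fun p hp => ?_⟩
  have : Fact p.Prime := ⟨hp⟩
  rw [← Nat.factorization_def _ hp, ← Nat.factorization_def _ hp]
  by_cases ex : ∃ m, ∃ σ ∈ clo G X, σ ≠ 1 ∧ σ ^ p = 1 ∧ σ.support.card = m
  swap
  · obtain ⟨s, h3, -, h4 | ⟨σ, h4, h5, h6⟩⟩ := U.syl hμ hp (M := 0) fun _ _ _ _ => Nat.zero_le _
    · exact ⟨s, h3, Or.inl h4⟩
    · exact absurd ⟨_, σ, h4, h5, h6, rfl⟩ ex
  obtain ⟨σ, c1, c2, c3, c4⟩ := Nat.find_spec ex
  have hmin : ∀ τ ∈ clo G X, τ ≠ 1 → τ ^ p = 1 → σ.support.card ≤ τ.support.card :=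
    fun τ d1 d2 d3 => c4 ▸ Nat.find_min' ex ⟨τ, d1, d2, d3, rfl⟩
  have o1 : orderOf σ = p := orderOf_eq_prime c3 c2
  obtain ⟨t, ht⟩ : p ∣ σ.support.card := by
    rw [← Perm.sum_cycleType]
    refine Multiset.dvd_sum fun m hm => ?_
    have h3 := Perm.dvd_of_mem_cycleType hm
    rw [o1] at h3
    rcases (Nat.dvd_prime hp).1 h3 with h4 | h4
    · have := Perm.two_le_of_mem_cycleType hm; omega
    · rw [h4]
  rw [mul_comm] at ht
  obtain ⟨a, ha⟩ : σ.support.Nonempty := by
    rw [Finset.nonempty_iff_ne_empty, Ne, Perm.support_eq_empty_iff]; exact c2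
  have t1 : 1 ≤ t := by
    have := Finset.card_pos.2 ⟨a, ha⟩
    rcases t with _ | t
    · omega
    · omega
  obtain ⟨s, h3, h4, -⟩ := U.syl hμ hp hmin
  refine ⟨s, h3, Or.inr ⟨t, t1, ht ▸ h4, ?_, ?_⟩⟩
  · by_cases htp : p ≤ t
    · exact Or.inl htp
    let φ : G → clo G X := fun g => ⟨MulAction.toPerm g, fun a b => ⟨g, rfl, rfl⟩⟩
    let f : X →ₑ[φ] X := ⟨id, fun _ _ => rfl⟩
    refine Or.inr (jm (X := clo G X) (fun τ h a b => ?_)
      (IsPreprimitive.of_surjective (f := f) Function.surjective_id) (fun h => h2 ?_) hp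
      (not_le.1 htp) (ht ▸ hmin) c1 c2 c3 ht)
    · obtain ⟨g, g1, g2, g3⟩ := h a b
      obtain ⟨k, k1, k2⟩ := g1 a b
      exact ⟨k, k1.trans g2, k2.trans g3⟩
    · have h5 := Perm.isMultiplyPretransitive X 2
      rw [is_two_pretransitive_iff] at h5 ⊢
      intro a b c d hab hcd
      obtain ⟨τ, h7, h8⟩ := h5 hab hcd
      obtain ⟨g, h9, h10⟩ := (h ▸ Subgroup.mem_top τ : τ ∈ clo G X) a b
      exact ⟨g, h9.trans h7, h10.trans h8⟩
  · have h5 := two_n_le (G := G) h2 (Perm.mem_support.1 ha).symm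
    have h6 : (Ds G a (σ a)).card ≤ σ.support.card := Finset.card_le_card fun ω hω => by
      rw [Perm.mem_support]
      intro h1
      obtain ⟨g, g2, g3⟩ := c1 ω a
      exact mem_Ds.1 hω ⟨g, g2.trans h1, g3⟩
    rw [← ht]
    nlinarith

theorem uni (jm : JM) {G Ω : Type*} [Group G] [Finite G] [Fintype Ω] [DecidableEq Ω]
    [MulAction G Ω] [FaithfulSMul G Ω] [hp : IsPreprimitive G Ω]
    (h2 : ¬ IsMultiplyPretransitive G Ω 2) : UB (Fintype.card Ω) (Nat.card G) := by
  obtain ⟨H, h1, h3, h4, -⟩ := U.transport G Ω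
  have := h3 hp
  have h5 := U.uni0 jm (G := H) (X := Fin (Fintype.card Ω)) (fun g hg => by
    rw [Nat.one_le_iff_ne_zero, Ne, Set.ncard_eq_zero, Set.eq_empty_iff_forall_notMem]
    intro h
    exact hg (Subtype.ext (Equiv.ext fun x => not_not.1 (h x)))) fun h => h2 (h4 h)
  rwa [Fintype.card_fin, h1] at h5

end Cfsg.Agent.P4
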