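import Cfsg.Agent.P4.J0
import Cfsg.Agent.P4.G
import Cfsg.Agent.P4.U

/-!
The lemma of Jordan and Manning.
-/

set_option autoImplicit false

namespace Cfsg.Agent.P4
open Equiv MulAction

theorem jm {Ω : Type*} [Fintype Ω] [DecidableEq Ω] {X : Subgroup (Perm Ω)} (hc : Cl2 X)
    (pr : IsPreprimitive X Ω) (hX : X ≠ ⊤) {p t : ℕ} (hp : p.Prime) (htp : t < p)
    (hmin : ∀ σ ∈ X, σ ≠ 1 → σ ^ p = 1 → t * p ≤ σ.support.card) {g : Perm Ω} (h1 : g ∈ X)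
    (h2 : g ≠ 1) (h3 : g ^ p = 1) (h4 : g.support.card = t * p) :
    Fintype.card Ω ≤ t * p + t * (t - 1) :=
  J.jm_of hc pr hp htp hmin (fun S _ e ht hC hb =>
    grid hc pr hX hp htp hmin ((Fintype.card_coe S).trans e) ht hC hb) ⟨h1, h2, h3, h4⟩

theorem jm0 : JM := @fun _ _ _ _ hc pr hX _ _ hp htp hmin _ h1 h2 h3 h4 =>
  jm hc pr hX hp htp hmin h1 h2 h3 h4

theorem uni' {G Ω : Type*} [Group G] [Finite G] [Fintype Ω] [DecidableEq Ω] [MulAction G Ω]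
    [FaithfulSMul G Ω] [IsPreprimitive G Ω] (h2 : ¬ IsMultiplyPretransitive G Ω 2) :
    UB (Fintype.card Ω) (Nat.card G) := uni jm0 h2

end Cfsg.Agent.P4
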