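import Cfsg.Agent.P4.Defs

/-!
The lemma of Jordan and Manning on elements of prime order with few cycles, given the
impossibility of grids.
-/

set_option autoImplicit false
set_option linter.unusedSectionVars false

namespace Cfsg.Agent.P4.J
open Equiv Equiv.Perm Finset

variable {Ω : Type*} [Fintype Ω] [DecidableEq Ω] {X : Subgroup (Perm Ω)} {p t : ℕ}

theorem ia (σ : Perm Ω) (x : Ω) : σ⁻¹ (σ x) = x := σ.symm_apply_apply x

theorem ai (σ : Perm Ω) (x : Ω) : σ (σ⁻¹ x) = x := σ.apply_symm_apply x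

theorem pow_fix (hp : p.Prime) {σ : Perm Ω} (h : σ ^ p = 1) {a : ℕ} (ha : ¬ p ∣ a) {y : Ω}
    (e : (σ ^ a) y = y) : σ y = y := by
  obtain ⟨b, -, hb⟩ := Nat.exists_mul_mod_eq_one_of_coprime
    ((Nat.coprime_comm.1 ((hp.coprime_iff_not_dvd).2 ha))) hp.one_lt
  have := pow_apply_eq_self_of_apply_eq_self e b
  rwa [← pow_mul, pow_eq_pow_mod _ h, hb, pow_one] at this

theorem pow_inj (hp : p.Prime) {σ : Perm Ω} (h : σ ^ p = 1) {y : Ω} (hy : σ y ≠ y) {a b : ℕ}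
    (ha : a < p) (hb : b < p) (e : (σ ^ a) y = (σ ^ b) y) : a = b := by
  wlog l : a ≤ b generalizing a b
  · exact (this hb ha e.symm (by omega)).symm
  obtain ⟨d, rfl⟩ := Nat.exists_eq_add_of_le l
  rw [pow_add, mul_apply, (σ ^ a).injective.eq_iff] at e
  by_contra h'
  exact hy (pow_fix hp h (fun hd => absurd (Nat.le_of_dvd (by omega) hd) (by omega)) e.symm)

theorem cyc_card (hp : p.Prime) {σ : Perm Ω} (h : σ ^ p = 1) {W S : Finset Ω}
    (h1 : ∀ y ∈ W, σ y ≠ y) (h2 : ∀ y ∈ W, ∀ a : ℕ, (σ ^ a) y ∈ W → (σ ^ a) y = y)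
    (h3 : ∀ y ∈ W, ∀ a : ℕ, (σ ^ a) y ∈ S) : W.card * p ≤ S.card := by
  rw [← card_range p, ← card_product]
  refine card_le_card_of_injOn (fun q => (σ ^ q.2) q.1) (fun q hq => h3 _ (mem_product.1 hq).1 _) ?_
  rintro ⟨y, a⟩ hq ⟨y', b⟩ hq' e
  simp only [coe_product, Set.mem_prod, mem_coe, mem_range] at hq hq' e
  have e1 : (σ ^ (p - b + a)) y = y' := by
    rw [pow_add, mul_apply, e, ← mul_apply, ← pow_add, Nat.sub_add_cancel hq'.2.le, h, one_apply]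
  obtain rfl : y' = y := e1 ▸ h2 y hq.1 _ (e1 ▸ hq'.1)
  rw [pow_inj hp h (h1 _ hq.1) hq.2 hq'.2 e]

theorem st {ρ : Perm Ω} {S : Finset Ω} (h : ∀ x ∈ S, ρ x ∈ S) (x : Ω) : ρ x ∈ S ↔ x ∈ S :=
  ⟨fun hx => by simpa using perm_symm_on_of_perm_on_finset h hx, h x⟩

theorem restr {ρ : Perm Ω} (h : ρ ^ p = 1) (S : Finset Ω) (hS : ∀ x, ρ x ∈ S ↔ x ∈ S) :
    ∃ π : Perm Ω, (∀ x ∈ S, π x = ρ x) ∧ (∀ x ∉ S, π x = x) ∧ π ^ p = 1 :=
  ⟨ofSubtype (ρ.subtypePerm hS), fun x hx => ofSubtype_subtypePerm_of_mem hS hx,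
    fun x hx => ofSubtype_subtypePerm_of_not_mem hS hx, by
    rw [← map_pow, show ρ.subtypePerm hS ^ p = 1 by ext x; simp [subtypePerm_pow, h], map_one]⟩

theorem red (H : Subgroup (Perm Ω)) (Δ R : Finset Ω) (h : ∀ x ∈ Δ, ∃ r ∈ R, ∃ k ∈ H, k r = x) :
    ∃ R' ⊆ R, (∀ x ∈ Δ, ∃ r ∈ R', ∃ k ∈ H, k r = x) ∧ ∀ r ∈ R', ∀ k ∈ H, k r ∈ R' → k r = r := by
  classical
  obtain ⟨R', h1, h2⟩ := exists_min_image (R.powerset.filter fun R' =>
    ∀ x ∈ Δ, ∃ r ∈ R', ∃ k ∈ H, k r = x) card ⟨R, by simpa using h⟩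
  rw [mem_filter, mem_powerset] at h1
  refine ⟨R', h1.1, h1.2, fun r hr k hk h3 => by_contra fun h4 => ?_⟩
  refine (h2 (R'.erase (k r)) (mem_filter.2 ⟨mem_powerset.2 ((erase_subset _ _).trans h1.1),
    fun x hx => ?_⟩)).not_gt (card_erase_lt_of_mem h3)
  obtain ⟨r', h5, k', h6, rfl⟩ := h1.2 x hx
  by_cases e : r' = k r
  · exact ⟨r, mem_erase.2 ⟨Ne.symm h4, hr⟩, k' * k, mul_mem h6 hk, by rw [e]; rfl⟩
  · exact ⟨r', mem_erase.2 ⟨e, h5⟩, k', h6, rfl⟩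

/-- The elements of order `p` with `t` cycles. -/
def Gs (X : Subgroup (Perm Ω)) (p t : ℕ) (σ : Perm Ω) : Prop :=
  σ ∈ X ∧ σ ≠ 1 ∧ σ ^ p = 1 ∧ σ.support.card = t * p

theorem Gs.conj {σ h : Perm Ω} (hσ : Gs X p t σ) (hh : h ∈ X) : Gs X p t (h * σ * h⁻¹) :=
  ⟨mul_mem (mul_mem hh hσ.1) (inv_mem hh), by simpa using hσ.2.1, by
    rw [conj_pow, hσ.2.2.1]; simp, by rw [card_support_conj, hσ.2.2.2]⟩

theorem mem_conj {σ h : Perm Ω} {z : Ω} : z ∈ (h * σ * h⁻¹).support ↔ h⁻¹ z ∈ σ.support := by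
  simp only [mem_support, mul_apply, ne_eq, ← eq_inv_iff_eq]

/-- The group generated by the elements with support in `Δ`. -/
def HH (X : Subgroup (Perm Ω)) (p t : ℕ) (Δ : Finset Ω) : Subgroup (Perm Ω) :=
  Subgroup.closure {σ | Gs X p t σ ∧ σ.support ⊆ Δ}

variable {Δ : Finset Ω}

theorem HH_le : HH X p t Δ ≤ X := (Subgroup.closure_le _).2 fun _ h => h.1.1

theorem HH_mono {Δ' : Finset Ω} (h : Δ ⊆ Δ') : HH X p t Δ ≤ HH X p t Δ' :=
  Subgroup.closure_mono fun _ e => ⟨e.1, e.2.trans h⟩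

theorem HH_fix {k : Perm Ω} (hk : k ∈ HH X p t Δ) {z : Ω} (hz : z ∉ Δ) : k z = z :=
  (Subgroup.closure_le (MulAction.stabilizer (Perm Ω) z)).2
    (fun _ h => notMem_support.1 fun e => hz (h.2 e)) hk

theorem HH_st {k : Perm Ω} (hk : k ∈ HH X p t Δ) (z : Ω) : k z ∈ Δ ↔ z ∈ Δ :=
  ⟨fun h => by_contra fun h' => h' (HH_fix hk h' ▸ h),
    fun h => by_contra fun h' => h' ((k.injective (HH_fix hk h')).symm ▸ h)⟩

theorem mem_HH {σ : Perm Ω} (h : Gs X p t σ) (h' : σ.support ⊆ Δ) : σ ∈ HH X p t Δ :=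
  Subgroup.subset_closure ⟨h, h'⟩

/-- Every point is moved by a generator. -/
def Val (X : Subgroup (Perm Ω)) (p t : ℕ) (Δ : Finset Ω) : Prop :=
  ∀ x ∈ Δ, ∃ σ, Gs X p t σ ∧ σ.support ⊆ Δ ∧ x ∈ σ.support

theorem ex_out (pr : MulAction.IsPreprimitive X Ω) (hv : Val X p t Δ) {x y : Ω} (hx : x ∈ Δ)
    (hy : y ∉ Δ) : ∃ σ, Gs X p t σ ∧ ∃ z ∈ Δ, σ z ∉ Δ := by
  by_contra! h
  obtain ⟨τ, h1, -, h2⟩ := hv x hx
  let K : Subgroup X :=
    { carrier := {k | ∀ z, k.1 z ∈ Δ ↔ z ∈ Δ}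
      one_mem' := fun _ => Iff.rfl
      mul_mem' := fun ha hb z => (ha _).trans (hb z)
      inv_mem' := fun {k} hk z => by simpa using (hk (k.1⁻¹ z)).symm }
  have hK : Subgroup.normalClosure {(⟨τ, h1.1⟩ : X)} ≤ K := (Subgroup.closure_le _).2 fun k hk => by
    obtain ⟨_, rfl, e⟩ := Group.mem_conjugatesOfSet_iff.1 hk
    obtain ⟨c, rfl⟩ := isConj_iff.1 e
    exact st (h _ (h1.conj c.2))
  have := pr.isQuasiPreprimitive.isPretransitive_of_normal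
    (N := Subgroup.normalClosure {(⟨τ, h1.1⟩ : X)}) fun e => mem_support.1 h2
      ((e.ge (Set.mem_univ x) : ∀ _, _) ⟨_, Subgroup.subset_normalClosure rfl⟩)
  obtain ⟨k, e⟩ := this.exists_smul_eq x y
  exact hy (e ▸ (hK k.2 x).2 hx)

variable (hc : Cl2 X) (pr : MulAction.IsPreprimitive X Ω) (hp : p.Prime) (htp : t < p)
  (hmin : ∀ σ ∈ X, σ ≠ 1 → σ ^ p = 1 → t * p ≤ σ.support.card) (hv : Val X p t Δ)
  {R : Finset Ω} (hR : ∀ x ∈ Δ, ∃ r ∈ R, ∃ k ∈ HH X p t Δ, k r = x)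
include hc pr hp htp hmin hv hR

theorem step (hRt : R.card ≤ t) {x y : Ω} (hx : x ∈ Δ) (hy : y ∉ Δ) :
    ∃ σ, Gs X p t σ ∧ ¬ σ.support ⊆ Δ ∧
      (∀ τ, Gs X p t τ → ¬ τ.support ⊆ Δ → (σ.support \ Δ).card ≤ (τ.support \ Δ).card) ∧
      ∀ y ∉ Δ, ∀ a : ℕ, (σ ^ a) y ∉ Δ → (σ ^ a) y = y := by
  classical
  obtain ⟨σ0, h0, z, hz, h1⟩ := ex_out pr hv hx hy
  have z0 : z ∈ σ0.support := mem_support.2 fun e => h1 (e.symm ▸ hz)
  have h2 : ¬ σ0.support ⊆ Δ := fun e => h1 (e (apply_mem_support.2 z0))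
  obtain ⟨σ, h3, h4⟩ := exists_min_image (univ.filter fun σ => Gs X p t σ ∧ ¬ σ.support ⊆ Δ)
    (fun σ => (σ.support \ Δ).card) ⟨σ0, by simpa using ⟨h0, h2⟩⟩
  simp only [mem_filter, mem_univ, true_and, and_imp] at h3 h4
  refine ⟨σ, h3.1, h3.2, h4, fun y hy a h5 => by_contra fun h6 => ?_⟩
  have ρX : σ ^ a ∈ X := pow_mem h3.1.1 a
  have ρp : (σ ^ a) ^ p = 1 := by rw [← pow_mul, mul_comm, pow_mul, h3.1.2.2.1, one_pow]
  have ρs : ∀ z, (σ ^ a) z ≠ z → z ∈ σ.support := fun z e => support_pow_le σ a (mem_support.2 e)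
  generalize σ ^ a = ρ at h5 h6 ρX ρp ρs
  have a1 : ∀ τ, Gs X p t τ → τ.support ⊆ Δ → (ρ * τ * ρ⁻¹).support ⊆ Δ := fun τ b1 b2 => by
    by_contra b3
    refine (h4 _ (b1.conj ρX) b3).not_gt (lt_of_le_of_lt (card_le_card fun w hw => ?_)
      (card_erase_lt_of_mem (a := ρ y) (mem_sdiff.2 ⟨ρs _ fun e => h6 (ρ.injective e), h5⟩)))
    rw [mem_sdiff, mem_conj] at hw
    refine mem_erase.2 ⟨fun e => hy (by simpa [e] using b2 hw.1), mem_sdiff.2 ⟨ρs _ fun e => hw.2 ?_, hw.2⟩⟩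
    have := b2 hw.1
    rwa [← e, ia] at this
  have a2 : ∀ x, ρ x ∈ Δ ↔ x ∈ Δ := st fun x hx => by
    obtain ⟨τ, b1, b2, b3⟩ := hv x hx
    exact a1 τ b1 b2 (mem_conj.2 (by simpa using b3))
  have a3 : ∀ k ∈ HH X p t Δ, ρ * k * ρ⁻¹ ∈ HH X p t Δ := fun k hk =>
    (Subgroup.closure_le ((HH X p t Δ).comap (MulAut.conj ρ).toMonoidHom)).2
      (fun τ b => mem_HH (b.1.conj ρX) (a1 τ b.1 b.2)) hk
  have a4 : ∀ (i : ℕ), ∀ k ∈ HH X p t Δ, ρ ^ i * k * (ρ ^ i)⁻¹ ∈ HH X p t Δ := fun i k hk => by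
    induction i with
    | zero => simpa using hk
    | succ i ih => simpa [pow_succ', mul_assoc] using a3 _ ih
  have a5 : ∀ x ∈ Δ, ∃ k ∈ HH X p t Δ, k x = ρ x := fun x hx => by
    have b0 : ∀ i : ℕ, (ρ ^ i) x ∈ Δ := fun i => by
      induction i with
      | zero => exact hx
      | succ i ih => rw [pow_succ', mul_apply, a2]; exact ih
    choose r b1 k b2 b3 using fun i => hR _ (b0 i)
    obtain ⟨d, b4, k0, b5, b6⟩ : ∃ d, ¬ p ∣ d ∧ ∃ k ∈ HH X p t Δ, k x = (ρ ^ d) x := by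
      obtain ⟨i, hi, j, hj, b4, b5⟩ := exists_ne_map_eq_of_card_lt_of_maps_to (s := range p) (t := R)
        (by rw [card_range]; omega) (f := r) fun i _ => b1 i
      rw [mem_range] at hi hj
      refine ⟨p - i + j, fun ⟨c, e⟩ => ?_, _, a4 (p - i) _ (mul_mem (b2 j) (inv_mem (b2 i))), ?_⟩
      · rcases c with _ | _ | c
        · omega
        · omega
        · rw [mul_add, mul_add] at e; omega
      · have : (ρ ^ (p - i))⁻¹ = ρ ^ i := by
          rw [inv_eq_iff_mul_eq_one, ← pow_add, Nat.sub_add_cancel hi.le, ρp]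
        rw [this, mul_apply, mul_apply, mul_apply, ← b3 i, ia, b5, b3, pow_add, mul_apply]
    obtain ⟨b, -, hb⟩ := Nat.exists_mul_mod_eq_one_of_coprime
      ((Nat.coprime_comm.1 ((hp.coprime_iff_not_dvd).2 b4))) hp.one_lt
    have : ∃ k ∈ HH X p t Δ, k x = (ρ ^ (d * b)) x := by
      clear hb
      induction b with
      | zero => exact ⟨1, one_mem _, by simp⟩
      | succ b ih =>
        obtain ⟨k1, c1, c2⟩ := ih
        exact ⟨_, mul_mem (a4 d _ c1) b5, by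
          rw [mul_apply, b6, mul_apply, ia, mul_apply, c2, mul_add, mul_one, add_comm,
            pow_add, mul_apply]⟩
    rwa [pow_eq_pow_mod _ ρp, hb, pow_one] at this
  obtain ⟨π, b1, b2, b3⟩ := restr ρp Δᶜ (by simpa using fun x => not_congr (a2 x))
  simp only [mem_compl, not_not] at b1 b2
  have a6 : ∀ x ∈ Δ, ∀ y ∉ Δ, ∃ g ∈ X, g x = π x ∧ g y = π y := fun x hx y hy => by
    obtain ⟨k, c1, c2⟩ := a5 x hx
    exact ⟨k⁻¹ * ρ, mul_mem (inv_mem (HH_le c1)) ρX, by rw [mul_apply, ← c2, b2 x hx, ia],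
      by rw [mul_apply, b1 y hy, HH_fix (inv_mem c1) (mt (a2 y).1 hy)]⟩
  have πX : π ∈ X := hc π fun x y => by
    by_cases hx : x ∈ Δ <;> by_cases hy : y ∈ Δ
    · exact ⟨1, one_mem _, (b2 x hx).symm, (b2 y hy).symm⟩
    · exact a6 x hx y hy
    · exact (a6 y hy x hx).imp fun g e => ⟨e.1, e.2.symm⟩
    · exact ⟨ρ, ρX, (b1 x hx).symm, (b1 y hy).symm⟩
  have c1 := hmin π πX (fun e => h6 (by rw [← b1 y hy, e, one_apply])) b3
  have c2 : π.support.card ≤ (σ.support \ Δ).card := card_le_card fun w hw => by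
    have c3 : w ∉ Δ := fun e => mem_support.1 hw (b2 w e)
    exact mem_sdiff.2 ⟨ρs _ (b1 w c3 ▸ mem_support.1 hw), c3⟩
  have c3 : (σ0.support \ Δ).card < σ0.support.card :=
    card_lt_card ⟨sdiff_subset, fun e => (mem_sdiff.1 (e z0)).2 hz⟩
  have := h4 σ0 h0 h2
  rw [h0.2.2.2] at c3
  omega

section
variable {σ : Perm Ω} (h1 : Gs X p t σ) (h2 : ¬ σ.support ⊆ Δ)
  (h3 : ∀ τ, Gs X p t τ → ¬ τ.support ⊆ Δ → (σ.support \ Δ).card ≤ (τ.support \ Δ).card)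
  (h4 : ∀ y ∉ Δ, ∀ a : ℕ, (σ ^ a) y ∉ Δ → (σ ^ a) y = y)

omit hc pr htp hmin hv hR in
include h1 h4 in
theorem wle : (σ.support \ Δ).card ≤ t := by
  have := cyc_card hp h1.2.2.1 (W := σ.support \ Δ) (S := σ.support)
    (fun y hy => mem_support.1 (mem_sdiff.1 hy).1)
    (fun y hy a h => h4 y (mem_sdiff.1 hy).2 a (mem_sdiff.1 h).2)
    fun y hy a => pow_apply_mem_support.2 (mem_sdiff.1 hy).1
  rw [h1.2.2.2] at this
  exact Nat.le_of_mul_le_mul_right this hp.pos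

omit hc pr hp htp hmin hR in
include h3 in
theorem blk {k : Perm Ω} (hk : k ∈ HH X p t (Δ ∪ σ.support)) {y : Ω} (hy : y ∈ σ.support \ Δ)
    (h : k y ∈ σ.support \ Δ) (z : Ω) : k z ∈ σ.support \ Δ ↔ z ∈ σ.support \ Δ := by
  by_cases a1 : ∀ x ∈ Δ, k x ∈ Δ
  · have a2 := HH_st hk z
    have a3 := st a1 z
    simp only [mem_union, mem_sdiff] at a2 ⊢
    tauto
  push Not at a1
  obtain ⟨x, hx, a1⟩ := a1
  obtain ⟨τ, b1, b2, b3⟩ := hv x hx
  have a2 : (k * τ * k⁻¹).support \ Δ = σ.support \ Δ := eq_of_subset_of_card_le (fun w hw => by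
    rw [mem_sdiff, mem_conj] at hw
    have := (HH_st (inv_mem hk) w).1 (mem_union_left _ (b2 hw.1))
    exact mem_sdiff.2 ⟨(mem_union.1 this).resolve_left hw.2, hw.2⟩)
    (h3 _ (b1.conj (HH_le hk)) fun e => a1 (e (mem_conj.2 (by rwa [ia]))))
  rw [← a2, mem_sdiff, mem_conj, ia] at h
  exact absurd (b2 h.1) (mem_sdiff.1 hy).2

variable (nm : ∀ r ∈ R, ∀ k ∈ HH X p t (Δ ∪ σ.support), k r ∈ R → k r = r)
include h3 nm

omit hc pr hp htp hmin in
theorem col {x y : Ω} {k l : Perm Ω} (hk : k ∈ HH X p t (Δ ∪ σ.support))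
    (hl : l ∈ HH X p t (Δ ∪ σ.support)) (hy : y ∈ σ.support \ Δ) (hy' : l y ∈ σ.support \ Δ)
    (hx : x ∉ σ.support \ Δ) (hx' : k x ∉ σ.support \ Δ) : ∃ g ∈ X, g x = k x ∧ g y = l y := by
  by_cases a1 : x ∈ Δ ∪ σ.support
  swap
  · exact ⟨l, HH_le hl, by rw [HH_fix hl a1, HH_fix hk a1], rfl⟩
  have a0 : ∀ z ∈ Δ ∪ σ.support, z ∉ σ.support \ Δ → z ∈ Δ := fun z => by
    simp only [mem_union, mem_sdiff]; tauto
  obtain ⟨r, b1, k1, b2, b3⟩ := hR _ (a0 _ ((HH_st hl x).2 a1) (mt (blk hv h3 hl hy hy' x).1 hx))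
  obtain ⟨r', c1, k2, c2, c3⟩ := hR _ (a0 _ ((HH_st hk x).2 a1) hx')
  have m := HH_mono (X := X) (p := p) (t := t) (subset_union_left (s₁ := Δ) (s₂ := σ.support))
  have e : (k2⁻¹ * k * l⁻¹ * k1) r = r' := by
    rw [mul_apply, b3, mul_apply, ia, mul_apply, ← c3, ia]
  have e' := nm r b1 _ (mul_mem (mul_mem (mul_mem (inv_mem (m c2)) hk) (inv_mem hl)) (m b2))
    (e ▸ c1)
  refine ⟨k2 * k1⁻¹ * l, mul_mem (HH_le (mul_mem c2 (inv_mem b2))) (HH_le hl), ?_, ?_⟩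
  · rw [mul_apply, ← b3, mul_apply, ia, ← e', e, c3]
  · rw [mul_apply, HH_fix (mul_mem c2 (inv_mem b2)) (mem_sdiff.1 hy').2]

omit pr hp htp hmin in
theorem memX {π : Perm Ω} (h : ∀ y, π y = y ∨ ∃ h ∈ HH X p t (Δ ∪ σ.support),
    ∃ k ∈ HH X p t (Δ ∪ σ.support), h⁻¹ y ∈ σ.support \ Δ ∧
      ∀ z, h⁻¹ z ∈ σ.support \ Δ → π z = k z) : π ∈ X := by
  have a1 : ∀ x, ∃ k ∈ HH X p t (Δ ∪ σ.support), π x = k x := fun x =>
    (h x).elim (fun e => ⟨1, one_mem _, e⟩) fun ⟨_, _, k, hk, e, e'⟩ => ⟨k, hk, e' x e⟩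
  have a2 : ∀ x y, π y ≠ y → ∃ g ∈ X, g x = π x ∧ g y = π y := fun x y hy => by
    obtain ⟨h, hh, k, hk, e, e'⟩ := (h y).resolve_left hy
    by_cases hx : h⁻¹ x ∈ σ.support \ Δ
    · exact ⟨k, HH_le hk, (e' x hx).symm, (e' y e).symm⟩
    obtain ⟨l, hl, b1⟩ := a1 x
    obtain ⟨g, b2, b3, b4⟩ := col hv hR h3 nm
      (mul_mem (mul_mem (inv_mem (mul_mem hk hh)) hl) hh) (one_mem _) e e hx fun b2 => hx (by
        rw [mul_apply, ai, mul_apply, ← b1, mul_inv_rev, mul_apply] at b2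
        have := e' _ b2
        rw [ai, π.injective.eq_iff] at this
        rwa [this] at b2)
    refine ⟨k * h * g * h⁻¹, mul_mem (mul_mem (HH_le (mul_mem hk hh)) b2) (inv_mem (HH_le hh)),
      ?_, ?_⟩
    · rw [mul_apply, mul_apply, b3, b1]
      simp
    · rw [mul_apply, mul_apply, b4, one_apply, mul_apply, ai, e' y e]
  refine hc π fun x y => ?_
  by_cases hy : π y = y
  · by_cases hx : π x = x
    · exact ⟨1, one_mem _, hx.symm, hy.symm⟩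
    · exact (a2 y x hx).imp fun g e => ⟨e.1, e.2.symm⟩
  · exact a2 x y hy

omit pr in
include h1 h2 h4 in
theorem exgrid : (σ.support \ Δ).card = t ∧ ∃ C : Finset (↥(σ.support \ Δ) → Ω),
    Grid X C ∧ p + 1 ≤ C.card := by
  classical
  obtain ⟨y0, a1, a2⟩ := not_subset.1 h2
  have hσ : σ ∈ HH X p t (Δ ∪ σ.support) := mem_HH h1 subset_union_right
  have a3 : ∀ y ∈ σ.support \ Δ, σ y ∈ Δ := fun y hy => by_contra fun h =>
    mem_support.1 (mem_sdiff.1 hy).1 (h4 y (mem_sdiff.1 hy).2 1 h)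
  have y0W : y0 ∈ σ.support \ Δ := mem_sdiff.2 ⟨a1, a2⟩
  have hw : (σ.support \ Δ).card = t := by
    refine le_antisymm (wle hp h1 h4) (Nat.le_of_mul_le_mul_right ?_ hp.pos)
    obtain ⟨π, b1, b2, b3⟩ := restr h1.2.2.1
      (univ.filter fun z => ∃ y ∈ σ.support \ Δ, σ.SameCycle y z) (by simp)
    simp only [mem_filter, mem_univ, true_and] at b1 b2
    refine (hmin π (memX hc hv hR h3 nm fun z => or_iff_not_imp_left.2 fun h => ?_) (fun e =>
      mem_support.1 a1 (by rw [← b1 y0 ⟨y0, y0W, SameCycle.rfl⟩, e, one_apply])) b3).trans ?_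
    · obtain ⟨y, hy, i, rfl⟩ := not_not.1 (mt (b2 z) h)
      exact ⟨σ ^ i, zpow_mem hσ i, σ, hσ, by rwa [ia], fun z hz => b1 z ⟨_, hz, i, ai _ _⟩⟩
    · rw [← card_range p, ← card_product]
      refine card_le_card_of_surjOn (fun q => (σ ^ q.2) q.1) fun z hz => ?_
      obtain ⟨y, hy, h⟩ := not_not.1 (mt (b2 z) (mem_support.1 hz))
      obtain ⟨i, -, rfl⟩ := h.exists_pow_eq'
      exact ⟨(y, i % p), by simpa [Nat.mod_lt _ hp.pos] using hy, by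
        simp only [← pow_eq_pow_mod _ h1.2.2.1]⟩
  refine ⟨hw, ?_⟩
  obtain ⟨τ, b1, b2, b3⟩ := hv _ (a3 _ y0W)
  have hτ := mem_HH b1 b2
  let f : Option (Fin p) → Perm Ω := fun o => o.elim 1 fun i => τ ^ i.1 * σ
  have f1 : ∀ o, f o ∈ HH X p t (Δ ∪ σ.support) := by
    rintro (_ | i)
    exacts [one_mem _, mul_mem (pow_mem (HH_mono subset_union_left hτ) _) hσ]
  have f2 : ∀ o o', ∀ y ∈ σ.support \ Δ, ∀ y' ∈ σ.support \ Δ, f o y = f o' y' → o = o' := by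
    have c1 : ∀ i, ∀ y ∈ σ.support \ Δ, f (some i) y ∈ Δ := fun i y hy =>
      (HH_st (pow_mem hτ _) _).2 (a3 y hy)
    rintro (_ | i) (_ | j) y hy y' hy' e
    · rfl
    · exact absurd ((show y = _ from e) ▸ c1 j y' hy') (mem_sdiff.1 hy).2
    · exact absurd ((show _ = y' from e) ▸ c1 i y hy) (mem_sdiff.1 hy').2
    by_contra ij
    have c2 := blk hv h3 (mul_mem (inv_mem (f1 (some j))) (f1 (some i))) hy
      (by rwa [mul_apply, e, ia])
    have c3 : (f (some j))⁻¹ * f (some i) = σ⁻¹ * τ ^ (p - j + i) * σ⁻¹⁻¹ := by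
      rw [inv_mul_eq_iff_eq_mul, pow_add]
      simp only [f, Option.elim, mul_assoc, inv_inv, mul_inv_cancel_left]
      rw [← mul_assoc, ← pow_add, Nat.add_sub_cancel' j.2.le, b1.2.2.1, one_mul]
    rw [c3] at c2
    have c4 : (σ⁻¹ * τ ^ (p - j + i) * σ⁻¹⁻¹) ^ p = 1 := by
      rw [conj_pow, ← pow_mul, mul_comm _ p, pow_mul, b1.2.2.1]; simp
    have c5 : (σ⁻¹ * τ ^ (p - j + i) * σ⁻¹⁻¹) y0 ≠ y0 := fun e => by
      rw [inv_inv, mul_apply, mul_apply, inv_eq_iff_eq] at e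
      refine mem_support.1 b3 (pow_fix hp b1.2.2.1 (fun ⟨c, e⟩ => ij ?_) e)
      have := i.2
      have := j.2
      rcases c with _ | _ | c
      · omega
      · exact congrArg _ (Fin.ext (by omega))
      · rw [mul_add, mul_add] at e; omega
    generalize σ⁻¹ * τ ^ (p - j + i) * σ⁻¹⁻¹ = ν at c2 c4 c5
    have := cyc_card hp c4 (W := {y0}) (S := σ.support \ Δ) (by simpa using c5) (by simp)
      fun y hy a => by
        induction a with
        | zero => rwa [mem_singleton.1 hy]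
        | succ a ih => rwa [pow_succ', mul_apply, c2]
    rw [card_singleton] at this
    omega
  refine ⟨univ.image fun o y => f o y.1, ⟨?_, ?_⟩, ?_⟩
  · simp only [mem_image, mem_univ, true_and]
    rintro _ ⟨o, rfl⟩ _ ⟨o', rfl⟩ i j e
    obtain rfl := f2 _ _ _ i.2 _ j.2 e
    exact ⟨rfl, Subtype.ext ((f o).injective e)⟩
  · simp only [mem_image, mem_univ, true_and]
    rintro _ ⟨o, rfl⟩ _ ⟨o', rfl⟩
    by_cases e : o = o'
    · exact ⟨1, one_mem _, by simp [e], fun _ _ => rfl⟩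
    have d1 : ∀ y ∈ σ.support \ Δ, (f o)⁻¹ (f o' y) ∉ σ.support \ Δ := fun y hy h =>
      e (f2 _ _ _ h _ hy (ai _ _))
    let s : Ω → Ω := fun z => if (f o)⁻¹ z ∈ σ.support \ Δ then f o' ((f o)⁻¹ z) else
      if (f o')⁻¹ z ∈ σ.support \ Δ then f o ((f o')⁻¹ z) else z
    have s1 : ∀ y ∈ σ.support \ Δ, s (f o y) = f o' y := fun y hy => by
      simp only [s, ia, hy, if_true]
    have s2 : ∀ y ∈ σ.support \ Δ, s (f o' y) = f o y := fun y hy => by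
      simp only [s, ia, hy, d1 y hy, if_true, if_false]
    have s3 : ∀ z, (f o)⁻¹ z ∉ σ.support \ Δ → (f o')⁻¹ z ∉ σ.support \ Δ → s z = z :=
      fun z h h' => by simp only [s, h, h', if_false]
    have s4 : Function.Involutive s := fun z => by
      by_cases h : (f o)⁻¹ z ∈ σ.support \ Δ
      · rw [← ai (f o) z, s1 _ h, s2 _ h]
      by_cases h' : (f o')⁻¹ z ∈ σ.support \ Δ
      · rw [← ai (f o') z, s2 _ h', s1 _ h']
      · rw [s3 z h h', s3 z h h']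
    refine ⟨s4.toPerm s, memX hc hv hR h3 nm fun z => ?_, fun i => ⟨s1 _ i.2, s2 _ i.2⟩,
      fun z h => s3 z (fun h' => (h ⟨_, h'⟩).1 (ai _ _).symm) fun h' => (h ⟨_, h'⟩).2 (ai _ _).symm⟩
    by_cases h : (f o)⁻¹ z ∈ σ.support \ Δ
    · exact .inr ⟨_, f1 o, _, mul_mem (f1 o') (inv_mem (f1 o)), h, fun w hw => by
        rw [mul_apply, ← s1 _ hw, ai]; rfl⟩
    by_cases h' : (f o')⁻¹ z ∈ σ.support \ Δ
    · exact .inr ⟨_, f1 o', _, mul_mem (f1 o) (inv_mem (f1 o')), h', fun w hw => by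
        rw [mul_apply, ← s2 _ hw, ai]; rfl⟩
    · exact .inl (s3 z h h')
  · rw [card_image_of_injective _ fun o o' e => f2 _ _ _ y0W _ y0W (congrFun e ⟨y0, y0W⟩)]
    simp

end

omit hv hR in
theorem jm_of (GR : ∀ (S : Finset Ω) (C : Finset (S → Ω)), S.card = t → 1 ≤ t → Grid X C →
      p + 1 ≤ C.card → Fintype.card Ω ≤ t * p + t * (t - 1))
    {g : Perm Ω} (hg : Gs X p t g) : Fintype.card Ω ≤ t * p + t * (t - 1) := by
  have t1 : 1 ≤ t := Nat.pos_of_ne_zero fun e => hg.2.1 (by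
    have := hg.2.2.2
    rwa [e, zero_mul, card_eq_zero, support_eq_empty_iff] at this)
  have key : ∀ u (Δ R : Finset Ω), Val X p t Δ → Δ.Nonempty →
      (∀ x ∈ Δ, ∃ r ∈ R, ∃ k ∈ HH X p t Δ, k r = x) → R.card ≤ u → u ≤ t →
      Δ.card + u * t ≤ t * p + t * t → Fintype.card Ω ≤ t * p + t * (t - 1) := fun u => by
    induction u with
    | zero =>
      rintro Δ R - ⟨x, hx⟩ hR h - -
      obtain ⟨r, hr, -⟩ := hR x hx
      exact absurd (card_pos.2 ⟨r, hr⟩) (by omega)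
    | succ u ih =>
      rintro Δ R hv ⟨x, hx⟩ hR h1 h2 h3
      by_cases hΔ : Δ = univ
      · obtain ⟨t, rfl⟩ := Nat.exists_eq_add_of_le' t1
        rw [hΔ, card_univ] at h3
        rw [Nat.add_sub_cancel]
        nlinarith
      obtain ⟨y, hy⟩ : ∃ y, y ∉ Δ := by simpa [eq_univ_iff_forall] using hΔ
      obtain ⟨σ, a1, a2, a3, a4⟩ := step hc pr hp htp hmin hv hR (h1.trans h2) hx hy
      have m := HH_mono (X := X) (p := p) (t := t) (subset_union_left (s₁ := Δ) (s₂ := σ.support))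
      obtain ⟨R', b1, b2, b3⟩ := red (HH X p t (Δ ∪ σ.support)) (Δ ∪ σ.support) R fun z hz => by
        by_cases h : z ∈ Δ
        · obtain ⟨r, hr, k, hk, e⟩ := hR z h
          exact ⟨r, hr, k, m hk, e⟩
        have h' := (mem_union.1 hz).resolve_left h
        obtain ⟨r, hr, k, hk, e⟩ := hR (σ z) (by_contra fun e => mem_support.1 h' (a4 z h 1 e))
        exact ⟨r, hr, σ⁻¹ * k, mul_mem (inv_mem (mem_HH a1 subset_union_right)) (m hk), by
          rw [mul_apply, e, ia]⟩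
      by_cases e : R' = R
      · obtain ⟨c1, C, c2, c3⟩ := exgrid hc hp htp hmin hv hR a1 a2 a3 a4 (e ▸ b3)
        exact GR _ C c1 t1 c2 c3
      refine ih _ R' (fun z hz => ?_) ⟨x, mem_union_left _ hx⟩ b2
        (Nat.le_of_lt_succ ((card_lt_card (b1.ssubset_of_ne e)).trans_le h1)) (by omega) ?_
      · rcases mem_union.1 hz with h | h
        · obtain ⟨τ, c1, c2, c3⟩ := hv z h
          exact ⟨τ, c1, c2.trans subset_union_left, c3⟩
        · exact ⟨σ, a1, subset_union_right, h⟩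
      · have := wle hp a1 a4
        rw [← union_sdiff_self_eq_union, card_union_of_disjoint disjoint_sdiff]
        nlinarith
  obtain ⟨R, b1, b2, b3⟩ := red (HH X p t g.support) g.support g.support
    fun x hx => ⟨x, hx, 1, one_mem _, rfl⟩
  have := cyc_card hp hg.2.2.1 (W := R) (S := g.support) (fun y hy => mem_support.1 (b1 hy))
    (fun y hy a => b3 y hy _ (pow_mem (mem_HH hg subset_rfl) a))
    fun y hy a => pow_apply_mem_support.2 (b1 hy)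
  rw [hg.2.2.2] at this
  exact key t _ R (fun x hx => ⟨g, hg, subset_rfl, hx⟩)
    (nonempty_iff_ne_empty.2 (mt support_eq_empty_iff.1 hg.2.1)) b2
    (Nat.le_of_mul_le_mul_right this hp.pos) le_rfl (by rw [hg.2.2.2])

end Cfsg.Agent.P4.J
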