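import Cfsg.Agent.P4.M0

/-!
Miller's bound for the degree of transitivity, and the stabiliser chain.
-/

set_option autoImplicit false

namespace Cfsg.Agent.P4
open Equiv Equiv.Perm MulAction Cfsg.Agent.H3

namespace Mi
variable {Ω : Type*} [Fintype Ω] [DecidableEq Ω] {G P : Subgroup (Perm Ω)} {Γ : Finset Ω} {p : ℕ}

open Classical in
/-- the orbit as a finite set -/
noncomputable def ob (P : Subgroup (Perm Ω)) (y : Ω) : Finset Ω :=
  Finset.univ.filter fun z => z ∈ orbit P y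

theorem mem_ob {y z : Ω} : z ∈ ob P y ↔ z ∈ orbit P y := by simp [ob]

theorem mem_orb {y z : Ω} : z ∈ orbit P y ↔ ∃ a ∈ P, a y = z :=
  ⟨fun ⟨a, h⟩ => ⟨a, a.2, h⟩, fun ⟨a, ha, h⟩ => ⟨⟨a, ha⟩, h⟩⟩

theorem St.card_ob (s : St G P Γ p) {y : Ω} (hy : y ∉ Γ) : (ob P y).card = p := by
  rw [← s.idx y hy, index_stabilizer, ← Set.ncard_coe_finset]
  congr 1
  ext z
  simp [mem_ob]

theorem St.ob_sub (s : St G P Γ p) {y : Ω} (hy : y ∉ Γ) : ob P y ⊆ Γᶜ := by
  intro z hz
  obtain ⟨a, ha, rfl⟩ := mem_orb.mp (mem_ob.mp hz)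
  exact Finset.mem_compl.mpr (s.presP ha hy)

theorem ob_eq {y z : Ω} (h : z ∈ ob P y) : ob P z = ob P y := by
  ext w
  rw [mem_ob, mem_ob, orbit_eq_iff.mpr (mem_ob.mp h)]

theorem ob_self (y : Ω) : y ∈ ob P y := mem_ob.mpr (mem_orbit_self y)

theorem ob_disj {y z : Ω} (h : z ∉ ob P y) : Disjoint (ob P y) (ob P z) := by
  rw [Finset.disjoint_left]
  intro w h1 h2
  exact h (by rw [← ob_eq h1, ob_eq h2]; exact ob_self z)

theorem ob_image {x : Perm Ω} (hx : x ∈ Subgroup.normalizer (P : Set (Perm Ω))) (y : Ω) :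
    (ob P y).image x = ob P (x y) := by
  ext z
  simp only [Finset.mem_image, mem_ob, mem_orb]
  constructor
  · rintro ⟨_, ⟨a, ha, rfl⟩, rfl⟩
    exact ⟨_, cjm hx ha, by simp⟩
  · rintro ⟨a, ha, rfl⟩
    exact ⟨_, ⟨_, cjm (Subgroup.inv_mem _ hx) ha, rfl⟩, by simp⟩

theorem St.res_ne (s : St G P Γ p) {q : ℕ} (hq : q < Γ.card) (h2 : 2 ≤ Γ.card)
    (hn : Fintype.card Ω = q * p + Γ.card) : res Γ (MM s) ≠ ⊥ := by
  set T : Finset (Finset Ω) := Γᶜ.image (ob P) with hT
  have hTc : T.card ≤ q := by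
    have h1 : (T.biUnion id).card = ∑ u ∈ T, (id u).card := by
      apply Finset.card_biUnion
      intro u hu v hv huv
      obtain ⟨y, -, rfl⟩ := Finset.mem_image.mp hu
      obtain ⟨z, -, rfl⟩ := Finset.mem_image.mp hv
      exact ob_disj fun h => huv (ob_eq h).symm
    have h3 : ∑ u ∈ T, (id u).card = T.card * p := by
      rw [Finset.sum_congr rfl (g := fun _ => p)]
      · simp
      · intro u hu
        obtain ⟨y, hy, rfl⟩ := Finset.mem_image.mp hu
        exact s.card_ob (Finset.mem_compl.mp hy)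
    have h4 : T.biUnion id ⊆ Γᶜ := by
      rw [Finset.biUnion_subset]
      intro u hu
      obtain ⟨y, hy, rfl⟩ := Finset.mem_image.mp hu
      exact s.ob_sub (Finset.mem_compl.mp hy)
    have h5 := Finset.card_le_card h4
    rw [h1, h3, Finset.card_compl, hn, Nat.add_sub_cancel] at h5
    exact Nat.le_of_mul_le_mul_right h5 s.pr.pos
  choose x hx ex using s.sur
  have hm : ∀ σ, ∀ u ∈ T, u.image (x σ) ∈ T := by
    intro σ u hu
    obtain ⟨y, hy, rfl⟩ := Finset.mem_image.mp hu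
    rw [ob_image (hx σ).2]
    exact Finset.mem_image_of_mem _
      (Finset.mem_compl.mpr (s.pres (hx σ).2 (Finset.mem_compl.mp hy)))
  let F : Perm Γ → (T ↪ T) := fun σ => ⟨fun u => ⟨u.1.image (x σ), hm σ u.1 u.2⟩, fun u v h =>
    Subtype.ext (Finset.image_injective (x σ).injective (congrArg Subtype.val h))⟩
  obtain ⟨σ, τ, hne, hF⟩ := Fintype.exists_ne_map_eq_of_card_lt F (by
    rw [Fintype.card_embedding_eq, Fintype.card_perm, Nat.descFactorial_self, Fintype.card_coe,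
      Fintype.card_coe]
    obtain ⟨k, hk⟩ : ∃ k, Γ.card = k + 1 := ⟨Γ.card - 1, by omega⟩
    rw [hk]
    exact (Nat.factorial_le (by omega : T.card ≤ k)).trans_lt
      ((Nat.factorial_lt (by omega)).mpr (by omega)))
  refine Subgroup.ne_bot_iff_exists_ne_one.mpr ⟨⟨σ⁻¹ * τ, (x σ)⁻¹ * x τ, ⟨Subgroup.mul_mem _
    (Subgroup.inv_mem _ (hx σ)) (hx τ), fun y hy => ?_⟩, res_mul (res_inv (ex σ)) (ex τ)⟩,
    fun e => hne (inv_mul_eq_one.mp (congrArg Subtype.val e))⟩
  have h1 := congrArg (fun f : T ↪ T => (f ⟨ob P y, Finset.mem_image_of_mem _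
    (Finset.mem_compl.mpr hy)⟩).1) hF
  change (ob P y).image (x σ) = (ob P y).image (x τ) at h1
  have h3 : x τ y ∈ (ob P y).image (x σ) := h1 ▸ Finset.mem_image_of_mem _ (ob_self y)
  obtain ⟨z, hz, e⟩ := Finset.mem_image.mp h3
  obtain ⟨a, ha, rfl⟩ := mem_orb.mp (mem_ob.mp hz)
  exact ⟨a, ha, by rw [Perm.mul_apply, ← e]; simp⟩

/-- an element of `P` moving at most `p` points gives the alternating group -/
theorem St.cyc (s : St G P Γ p) (pr : IsPreprimitive G Ω) (hn : p + 3 ≤ Fintype.card Ω)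
    {c : Perm Ω} (hc : c ∈ P) (h1 : c ≠ 1) (hs : c.support.card ≤ p) :
    alternatingGroup Ω ≤ G := by
  have : Fact p.Prime := ⟨s.pr⟩
  have ho : orderOf c = p := orderOf_eq_prime (s.powp hc) h1
  have hcy : c.IsCycle := isCycle_of_prime_order (ho ▸ s.pr) (by
    have := s.pr.pos
    omega)
  exact JordanCycle.alt_le_of_prime_cycle G pr s.pr (by rwa [Nat.card_eq_fintype_card]) hcy
    (by rw [← hcy.orderOf, ho]) (s.le hc)

theorem St.three (s : St G P Γ p) (pr : IsPreprimitive G Ω) (hA : ¬ alternatingGroup Ω ≤ G)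
    (hn : Fintype.card Ω ≤ 3 * p + Γ.card) (h3 : p + 3 ≤ Fintype.card Ω) {x : Perm Ω}
    (hx : x ∈ MM s) : ∃ e, ∀ y ∉ Γ, Ch P x y e := by
  by_contra hne
  push Not at hne
  have fin : ∀ {y : Ω} {e e2 e3 : ℤ}, y ∉ Γ → Ch P x y e → ¬ (p : ℤ) ∣ e - e2 →
      ¬ (p : ℤ) ∣ e - e3 → (∀ z ∉ Γ, z ∉ orbit P y → Ch P x z e2 ∨ Ch P x z e3) → False := by
    intro y e e2 e3 hy h h2 h3' ho
    obtain ⟨c, hc, c1, hz⟩ := s.iso hx hy h h2 h3' ho
    refine hA (s.cyc pr h3 hc c1 ?_)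
    rw [← s.card_ob hy]
    apply Finset.card_le_card
    intro z hz'
    by_contra hh
    exact mem_support.mp hz' (hz z fun h => hh (mem_ob.mpr h))
  obtain ⟨y1, hy1, -⟩ := hne 0
  obtain ⟨e1, c1⟩ := s.ch hx hy1
  obtain ⟨y2, hy2, n2⟩ := hne e1
  obtain ⟨e2, c2⟩ := s.ch hx hy2
  have d12 : ¬ (p : ℤ) ∣ e1 - e2 := fun h => n2 (s.ch_congr c2 h)
  have d21 : ¬ (p : ℤ) ∣ e2 - e1 := fun h => d12 (by rw [← neg_sub]; exact h.neg_right)
  have orb : ∀ {y z : Ω} {e : ℤ}, Ch P x y e → z ∈ orbit P y → Ch P x z e := by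
    intro y z e h hz
    obtain ⟨a, ha, rfl⟩ := mem_orb.mp hz
    exact s.ch_orb hx h ha
  have o12 : y2 ∉ ob P y1 := fun h => n2 (orb c1 (mem_ob.mp h))
  obtain ⟨e3, he3⟩ : ∃ e3, ∀ z ∉ Γ, z ∉ orbit P y1 → z ∉ orbit P y2 → Ch P x z e3 := by
    by_cases hex : ∃ z ∉ Γ, z ∉ orbit P y1 ∧ z ∉ orbit P y2
    · obtain ⟨y3, hy3, o13, o23⟩ := hex
      obtain ⟨e3, c3⟩ := s.ch hx hy3
      refine ⟨e3, fun z hz z1 z2 => orb c3 ?_⟩
      by_contra z3
      have hs : insert z (ob P y1 ∪ ob P y2 ∪ ob P y3) ⊆ Γᶜ := by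
        rw [Finset.insert_subset_iff, Finset.union_subset_iff, Finset.union_subset_iff]
        exact ⟨Finset.mem_compl.mpr hz, ⟨s.ob_sub hy1, s.ob_sub hy2⟩, s.ob_sub hy3⟩
      have hc := Finset.card_le_card hs
      rw [Finset.card_insert_of_notMem (by simp [mem_ob, z1, z2, z3]),
        Finset.card_union_of_disjoint (Finset.disjoint_union_left.mpr
          ⟨ob_disj fun h => o13 (mem_ob.mp h), ob_disj fun h => o23 (mem_ob.mp h)⟩),
        Finset.card_union_of_disjoint (ob_disj o12), s.card_ob hy1, s.card_ob hy2,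
        s.card_ob hy3, Finset.card_compl] at hc
      omega
    · exact ⟨0, fun z hz z1 z2 => (hex ⟨z, hz, z1, z2⟩).elim⟩
  by_cases d13 : (p : ℤ) ∣ e1 - e3
  · refine fin hy2 c2 d21 d21 fun z hz z2 => Or.inl ?_
    by_cases z1 : z ∈ orbit P y1
    · exact orb c1 z1
    · exact s.ch_congr (he3 z hz z1 z2) d13
  · refine fin hy1 c1 d12 d13 fun z hz z1 => ?_
    by_cases z2 : z ∈ orbit P y2
    · exact Or.inl (orb c2 z2)
    · exact Or.inr (he3 z hz z1 z2)

theorem St.resK (s : St G P Γ p) (pr : IsPreprimitive G Ω) (hA : ¬ alternatingGroup Ω ≤ G)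
    {q : ℕ} (hq1 : 1 ≤ q) (hq : q < Γ.card) (h4 : 4 ≤ Γ.card)
    (hn : Fintype.card Ω = q * p + Γ.card) :
    res Γ (MM s ⊓ Subgroup.centralizer (P : Set (Perm Ω))) ≠ ⊥ := by
  have hM := s.res_ne hq (by omega) hn
  rw [Subgroup.ne_bot_iff_exists_ne_one]
  rcases h4.eq_or_lt with h | h
  · obtain ⟨⟨σ, x, hx, ex⟩, h1⟩ := Subgroup.ne_bot_iff_exists_ne_one.mp hM
    obtain ⟨τ, hτ⟩ := noncen (by rw [Fintype.card_coe]; exact h4) (y := σ)
      fun e => h1 (Subtype.ext e)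
    obtain ⟨n, hn', en⟩ := s.sur τ
    have hp : p ≤ q * p := Nat.le_mul_of_pos_left p hq1
    have hp' : q * p ≤ 3 * p := Nat.mul_le_mul_right p (by omega)
    obtain ⟨e, he⟩ := s.three pr hA (by omega) (by omega) hx
    have hxa : ∀ a ∈ P, x * a * x⁻¹ = a ^ e := by
      intro a ha
      ext y
      by_cases hy : y ∈ Γ
      · rw [s.fix _ (cjm hx.1.2 ha) y hy, s.fix _ (P.zpow_mem ha e) y hy]
      · exact he y hy a ha
    refine ⟨⟨_, _, s.cen hx (MM_cj s n hn' x hx) fun y hy => ⟨e, he y hy, fun a ha => ?_⟩,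
      res_mul (res_inv ex) (res_mul (res_mul en ex) (res_inv en))⟩,
      fun e => hτ (congrArg Subtype.val e)⟩
    have h1 := hxa _ (cjm (Subgroup.inv_mem _ hn'.2) ha)
    have : n * x * n⁻¹ * a * (n * x * n⁻¹)⁻¹ = a ^ e := by
      calc _ = n * (x * (n⁻¹ * a * n⁻¹⁻¹) * x⁻¹) * n⁻¹ := by group
        _ = a ^ e := by rw [h1, conj_zpow]; group
    rw [this]
  · obtain ⟨u, ⟨x, hx, ex⟩, v, ⟨x', hx', ex'⟩, huv⟩ :=
      nonab (by rw [Fintype.card_coe]; exact h) _ (res_normal s (MM_cj s)) hM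
    refine ⟨⟨_, _, s.cen ((MM s).mul_mem hx hx') ((MM s).mul_mem hx' hx) fun y hy => ?_,
      res_mul (res_inv (res_mul ex ex')) (res_mul ex' ex)⟩,
      fun e => huv (inv_mul_eq_one.mp (congrArg Subtype.val e))⟩
    obtain ⟨e, he⟩ := s.ch hx hy
    obtain ⟨e', he'⟩ := s.ch hx' hy
    exact ⟨e' * e, s.ch_mul hx hx' he he', mul_comm e e' ▸ s.ch_mul hx' hx he' he⟩

theorem St.small (s : St G P Γ p) (pr : IsPreprimitive G Ω) (hA : ¬ alternatingGroup Ω ≤ G)
    (hp : 2 < p) {q : ℕ} (hq1 : 1 ≤ q) (hq : q < Γ.card) (h4 : 4 ≤ Γ.card)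
    (hn : Fintype.card Ω = q * p + Γ.card) : ∃ x ∈ G, x ≠ 1 ∧ x.support.card ≤ Γ.card := by
  obtain ⟨a, b, c, d, h1, h2, h3, h5, h6, -, x, hx, ex⟩ := dt (by rw [Fintype.card_coe]; exact h4)
    _ (res_normal s (KK_cj s)) (s.resK pr hA hq1 hq h4 hn)
  refine ⟨x ^ p, G.pow_mem hx.1.1.1 p, fun e => ?_, Finset.card_le_card fun y hy => ?_⟩
  · have := res_pow ex p a
    rw [e, dt_pow h1 h2 h3 h5 h6 (s.pr.odd_of_ne_two (by omega))] at this
    exact h1 (Subtype.ext this)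
  · by_contra h
    exact mem_support.mp hy (s.powK hx h)

theorem exSt (hp : p.Prime) {q : ℕ} (hq1 : 1 ≤ q) (hq : q < p)
    (hn : Fintype.card Ω = q * p + Γ.card) (hG : IsMultiplyPretransitive G Ω (Γ.card + 1)) :
    ∃ P, St G P Γ p := by
  have : Fact p.Prime := ⟨hp⟩
  have hqp : p ≤ q * p := Nat.le_mul_of_pos_left p hq1
  have hp2 := hp.two_le
  have hk : Γ.card + 1 ≤ Nat.card Ω := by rw [Nat.card_eq_fintype_card]; omega
  let H : Subgroup (Perm Ω) := G ⊓ fixingSubgroup (Perm Ω) (Γ : Set Ω)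
  have hH : ∀ x, x ∈ H ↔ x ∈ G ∧ ∀ y ∈ Γ, x y = y := fun x =>
    and_congr Iff.rfl (mem_fixingSubgroup_iff (Perm Ω))
  obtain ⟨S⟩ : Nonempty (Sylow p H) := inferInstance
  let P : Subgroup (Perm Ω) := (S : Subgroup H).map H.subtype
  have hPp : IsPGroup p P := S.isPGroup'.map _
  have hPH : P ≤ H := Subgroup.map_subtype_le _
  have hnot : ∀ a ∈ H, ∀ y ∉ Γ, a y ∉ Γ := by
    intro a ha y hy h
    have := ((hH a).mp ha).2 _ h
    exact hy (a.injective this ▸ h)
  have idx : ∀ y ∉ Γ, (stabilizer P y).index = p := by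
    intro y hy
    obtain ⟨j, hj⟩ := hPp.index (stabilizer P y)
    have hle : (stabilizer P y).index ≤ q * p := by
      rw [index_stabilizer]
      have : orbit P y ⊆ ((Γᶜ : Finset Ω) : Set Ω) := by
        intro z hz
        obtain ⟨a, ha, rfl⟩ := mem_orb.mp hz
        exact Finset.mem_coe.mpr (Finset.mem_compl.mpr (hnot a (hPH ha) y hy))
      have := Set.ncard_le_ncard this
      rwa [Set.ncard_coe_finset, Finset.card_compl, hn, Nat.add_sub_cancel] at this
    have hj2 : j < 2 := by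
      apply (Nat.pow_lt_pow_iff_right hp.one_lt).mp
      rw [← hj, sq]
      exact hle.trans_lt (Nat.mul_lt_mul_of_pos_right hq hp.pos)
    have hj0 : j ≠ 0 := by
      rintro rfl
      rw [pow_zero, Subgroup.index_eq_one] at hj
      have h1 : (S : Subgroup H) ≤ stabilizer H y := by
        intro a ha
        have : (⟨a, a, ha, rfl⟩ : P) ∈ stabilizer P y := hj ▸ Subgroup.mem_top _
        exact this
      have h2 : (stabilizer H y).index = q * p := by
        rw [index_stabilizer]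
        have : orbit H y = ((Γᶜ : Finset Ω) : Set Ω) := by
          ext z
          rw [mem_orb, Finset.mem_coe, Finset.mem_compl]
          constructor
          · rintro ⟨a, ha, rfl⟩
            exact hnot a ha y hy
          · intro hz
            obtain ⟨g, h1, h2⟩ := Multi.fix_trans_of_multiply hG hk Γ (by omega) hy hz
            exact ⟨g, (hH _).mpr ⟨g.2, h1⟩, h2⟩
        rw [this, Set.ncard_coe_finset, Finset.card_compl, hn, Nat.add_sub_cancel]
      exact S.not_dvd_index ((Dvd.intro_left q h2.symm).trans (Subgroup.index_dvd_of_le h1))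
    rw [hj, show j = 1 by omega, pow_one]
  refine ⟨P, hp, hPH.trans inf_le_left, fun a ha => ((hH a).mp (hPH ha)).2, idx, fun y => ?_,
    fun σ => ?_⟩
  · by_cases hy : y ∈ Γ
    · have : stabilizer P y = ⊤ := eq_top_iff.mpr fun a _ => ((hH a).mp (hPH a.2)).2 y hy
      rw [this]
      infer_instance
    · apply Subgroup.normal_of_index_eq_minFac_card
      obtain ⟨j, hj⟩ := IsPGroup.iff_card.mp hPp
      have hd := (stabilizer P y).index_dvd_card
      rw [idx y hy] at hd ⊢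
      have hj0 : j ≠ 0 := by
        rintro rfl
        rw [hj, pow_zero, Nat.dvd_one] at hd
        omega
      rw [hj, hp.pow_minFac hj0]
  · obtain ⟨g, hg⟩ := Multi.exists_smul_eq_on hG hk Γ (by omega) (ofSubtype σ)
      (ofSubtype σ).injective.injOn
    have eg : ∀ y : Γ, (g : Perm Ω) y = σ y := fun y => by
      have := hg y y.2
      rwa [ofSubtype_apply_coe] at this
    have cjH : ∀ (x : Perm Ω) (τ : Perm Γ), x ∈ G → (∀ y : Γ, x y = τ y) → ∀ a ∈ H,
        x * a * x⁻¹ ∈ H := by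
      intro x τ hx ex a ha
      refine (hH _).mpr ⟨G.mul_mem (G.mul_mem hx ((hH a).mp ha).1) (G.inv_mem hx), fun y hy => ?_⟩
      have h1 := res_inv ex ⟨y, hy⟩
      change x (a (x⁻¹ y)) = y
      have h2 : x⁻¹ y ∈ Γ := by
        change x⁻¹ ((⟨y, hy⟩ : Γ) : Ω) ∈ Γ
        rw [h1]
        exact Subtype.prop _
      rw [((hH a).mp ha).2 _ h2]; simp
    let f : H ≃* H :=
      { toFun := fun a => ⟨g * a * (g : Perm Ω)⁻¹, cjH g σ g.2 eg a a.2⟩
        invFun := fun a => ⟨(g : Perm Ω)⁻¹ * a * (g : Perm Ω)⁻¹⁻¹,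
          cjH _ σ⁻¹ (G.inv_mem g.2) (res_inv eg) a a.2⟩
        left_inv := fun a => Subtype.ext (by simp [mul_assoc])
        right_inv := fun a => Subtype.ext (by simp [mul_assoc])
        map_mul' := fun a b => Subtype.ext (by simp [mul_assoc]) }
    obtain ⟨h, hh⟩ := exists_smul_eq H (S.mapSurjective (f := f.toMonoidHom) f.surjective) S
    refine ⟨h * g, ⟨G.mul_mem ((hH _).mp h.2).1 g.2, ?_⟩, fun y => ?_⟩
    · apply Subgroup.mem_normalizer_fintype
      rintro _ ⟨a, ha, rfl⟩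
      refine ⟨h * f a * h⁻¹, ?_, ?_⟩
      · have h1 : f a ∈ S.mapSurjective (f := f.toMonoidHom) f.surjective := ⟨a, ha, rfl⟩
        have h2 := Subgroup.smul_mem_pointwise_smul _ (MulAut.conj h) _ h1
        rw [← Sylow.coe_subgroup_smul, hh] at h2
        exact h2
      · change (h : Perm Ω) * (g * a * (g : Perm Ω)⁻¹) * (h : Perm Ω)⁻¹ = _
        simp [mul_assoc]
    · rw [Perm.mul_apply, eg]
      exact ((hH _).mp h.2).2 _ (Subtype.prop _)

end Mi

/-- Jordan, Miller: bounds for the degree of transitivity -/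
theorem trn {Ω : Type*} [Fintype Ω] [DecidableEq Ω] {G : Subgroup (Perm Ω)}
    [pr : IsPreprimitive G Ω] (hA : ¬ alternatingGroup Ω ≤ G) {k : ℕ}
    (h : Tr (Fintype.card Ω) k) : ¬ IsMultiplyPretransitive G Ω (k + 1) := by
  intro hG
  have hΓ : ∀ m, Fintype.card Ω = m + k → ∃ Γ : Finset Ω, Γ.card = k := fun m e => by
    obtain ⟨Γ, -, h⟩ := Finset.exists_subset_card_eq (s := (Finset.univ : Finset Ω)) (n := k)
      (by rw [Finset.card_univ]; omega)
    exact ⟨Γ, h⟩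
  rcases h with ⟨p, hp, h1, h2, h3⟩ | ⟨p, q, hp, h1, h2, h3, h4, h5, h6⟩
  · obtain ⟨Γ, rfl⟩ := hΓ p h3
    obtain ⟨P, s⟩ := Mi.exSt hp le_rfl hp.one_lt (by rw [one_mul]; exact h3) hG
    obtain ⟨y, hy⟩ := NormalMulti.exists_notMem Γ (by
      have := hp.pos
      rw [Nat.card_eq_fintype_card]; omega)
    obtain ⟨a, ha, hay⟩ := s.mov hy
    refine hA (s.cyc pr (by omega) ha (fun e => hay (by rw [e]; rfl)) ?_)
    have : a.support ⊆ Γᶜ := fun z hz =>
      Finset.mem_compl.mpr fun h => mem_support.mp hz (s.fix a ha z h)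
    have := Finset.card_le_card this
    rw [Finset.card_compl] at this
    omega
  · obtain ⟨Γ, rfl⟩ := hΓ _ h6
    obtain ⟨P, s⟩ := Mi.exSt hp h2 h3 h6 hG
    obtain ⟨x, hx, x1, hs⟩ := s.small pr hA h1 h2 h4 h5 h6
    have hqp : p ≤ q * p := Nat.le_mul_of_pos_left p h2
    obtain ⟨y, hy, y1, y3⟩ := Support.exists_support_le_three G (k := Γ.card + 1) (by omega)
      (by rw [Nat.card_eq_fintype_card]; omega) hG x hx x1 (by omega)
    exact hA (Support.alt_le_of_support_le_three G pr hy y1 y3)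

universe u v

/-- the bound for primitive, not doubly transitive groups, as a hypothesis -/
def UH : Prop := ∀ (G : Type u) (Ω : Type v) [Group G] [Finite G] [Fintype Ω] [DecidableEq Ω]
  [MulAction G Ω] [FaithfulSMul G Ω] [IsPreprimitive G Ω], ¬ IsMultiplyPretransitive G Ω 2 →
  UB (Fintype.card Ω) (Nat.card G)

/-- the bound for doubly transitive groups with imprimitive stabiliser, as a hypothesis -/
def IH : Prop := ∀ (G : Type u) (Ω : Type v) [Group G] [Finite G] [Fintype Ω] [DecidableEq Ω]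
  [MulAction G Ω] [FaithfulSMul G Ω] [IsMultiplyPretransitive G Ω 2] (a : Ω),
  ¬ IsPreprimitive (stabilizer G a) (SubMulAction.ofStabilizer G a) →
  IB (Fintype.card Ω) (Nat.card G)

theorem chain (hU : UH.{u, v}) (hI : IH.{u, v}) (k : ℕ) : ∀ (G : Type u) (Ω : Type v) [Group G]
    [Finite G] [Fintype Ω] [DecidableEq Ω] [MulAction G Ω] [FaithfulSMul G Ω]
    [IsPreprimitive G Ω], ¬ IsMultiplyPretransitive G Ω (k + 1) →
    ∃ m g, m ≤ Fintype.card Ω ∧ ((Fintype.card Ω < m + k ∧ UB m g) ∨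
      (Fintype.card Ω + 1 < m + k ∧ IB m g)) ∧
      Nat.card G * m.factorial ≤ (Fintype.card Ω).factorial * g := by
  induction k with
  | zero =>
    intro G Ω _ _ _ _ _ _ _ h
    exact (h (is_one_pretransitive_iff.mpr inferInstance)).elim
  | succ k ih =>
    intro G Ω _ _ _ _ _ _ _ h
    by_cases h2 : IsMultiplyPretransitive G Ω 2
    swap
    · exact ⟨_, _, le_rfl, Or.inl ⟨by omega, hU G Ω h2⟩, (mul_comm _ _).le⟩
    have hk : k ≠ 0 := by
      rintro rfl
      exact h h2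
    obtain ⟨a⟩ : Nonempty Ω := by
      by_contra hn
      exact h (isMultiplyPretransitive_iff.mpr fun x _ => (hn ⟨x 0⟩).elim)
    by_cases h3 : IsPreprimitive (stabilizer G a) (SubMulAction.ofStabilizer G a)
    swap
    · exact ⟨_, _, le_rfl, Or.inr ⟨by omega, hI G Ω a h3⟩, (mul_comm _ _).le⟩
    classical
    have : FaithfulSMul (stabilizer G a) (SubMulAction.ofStabilizer G a) := ⟨fun {x y} e => by
      apply Subtype.ext
      apply eq_of_smul_eq_smul (α := Ω)
      intro z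
      by_cases hz : z = a
      · rw [hz, x.2, y.2]
      · exact congrArg Subtype.val (e ⟨z, hz⟩)⟩
    let _ : Fintype (SubMulAction.ofStabilizer G a) := Fintype.ofFinite _
    obtain ⟨m, g, h4, h5, h6⟩ := ih (stabilizer G a) (SubMulAction.ofStabilizer G a)
      fun hh => h (SubMulAction.ofStabilizer.isMultiplyPretransitive.mpr hh)
    have hc := SubMulAction.nat_card_ofStabilizer_add_one_eq G a
    rw [Nat.card_eq_fintype_card, Nat.card_eq_fintype_card] at hc
    refine ⟨m, g, by omega, h5.imp (fun q => ⟨by omega, q.2⟩) (fun q => ⟨by omega, q.2⟩), ?_⟩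
    have h7 := (stabilizer G a).index_mul_card
    rw [index_stabilizer_of_transitive, Nat.card_eq_fintype_card (α := Ω)] at h7
    rw [← h7, ← hc, Nat.factorial_succ, mul_assoc, mul_assoc]
    exact Nat.mul_le_mul_left _ h6

/-- the numerical inputs -/
def NTH : Prop := ∀ n, 9 ≤ n → ∃ k ≤ kb n, Tr n k
def NUH : Prop := ∀ n m g, 9 ≤ n → m ≤ n → n < m + kb n → UB m g →
  n.factorial * g ≤ 4 ^ n * m.factorial
def NIH : Prop := ∀ n m g, 9 ≤ n → m ≤ n → n + 1 < m + kb n → IB m g →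
  n.factorial * g ≤ 4 ^ n * m.factorial

theorem fin_of (hU : UH.{u, u}) (hI : IH.{u, u}) (nt : NTH) (nu : NUH) (ni : NIH) {α : Type u}
    [Fintype α] [DecidableEq α] (G : Subgroup (Perm α)) (hG : IsPreprimitive G α)
    (hA : ¬ alternatingGroup α ≤ G) : Nat.card G ≤ 4 ^ Fintype.card α := by
  by_cases h9 : 9 ≤ Fintype.card α
  · obtain ⟨k, hk, ht⟩ := nt _ h9
    obtain ⟨m, g, h1, h2, h3⟩ := chain hU hI k G α (trn hA ht)
    refine Nat.le_of_mul_le_mul_right (h3.trans ?_) m.factorial_pos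
    rcases h2 with ⟨h, h'⟩ | ⟨h, h'⟩
    · exact nu _ m g h9 h1 (by omega) h'
    · exact ni _ m g h9 h1 (by omega) h'
  · have h1 := Subgroup.card_le_card_group G
    rw [Nat.card_perm, Nat.card_eq_fintype_card (α := α)] at h1
    refine h1.trans ?_
    generalize Fintype.card α = n at h9
    have : n < 9 := by omega
    interval_cases n <;> decide

end Cfsg.Agent.P4
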