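import Cfsg.Agent.P4.Defs
import Cfsg.Agent.H3.JordanCycle

/-!
Miller's bound for the degree of transitivity: the local analysis.
-/

set_option autoImplicit false

namespace Cfsg.Agent.P4.Mi
open Equiv Equiv.Perm MulAction

section dt
variable {T : Type*} [Fintype T] [DecidableEq T]

theorem ex3 (h : 4 ≤ Fintype.card T) (a b c : T) : ∃ d, d ≠ a ∧ d ≠ b ∧ d ≠ c := by
  by_contra hn
  push Not at hn
  have : (Finset.univ : Finset T) ⊆ {a, b, c} := by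
    intro d _
    by_cases h1 : d = a
    · simp [h1]
    by_cases h2 : d = b
    · simp [h2]
    simp [hn d h1 h2]
  have h1 := Finset.card_le_card this
  have h2 : ({a, b, c} : Finset T).card ≤ 3 := Finset.card_le_three
  rw [Finset.card_univ] at h1
  omega

theorem ex4 (h : 5 ≤ Fintype.card T) (a b c e : T) : ∃ d, d ≠ a ∧ d ≠ b ∧ d ≠ c ∧ d ≠ e := by
  by_contra hn
  push Not at hn
  have : (Finset.univ : Finset T) ⊆ {a, b, c, e} := by
    intro d _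
    by_cases h1 : d = a
    · simp [h1]
    by_cases h2 : d = b
    · simp [h2]
    by_cases h3 : d = c
    · simp [h3]
    simp [hn d h1 h2 h3]
  have h1 := Finset.card_le_card this
  have h2 : ({a, b, c, e} : Finset T).card ≤ 4 := Finset.card_le_four
  rw [Finset.card_univ] at h1
  omega

theorem cjs (s : Perm T) (a b : T) : s * swap a b * s⁻¹ = swap (s a) (s b) :=
  (swap_apply_apply s a b).symm

/-- a nontrivial normal subgroup of a symmetric group contains a double transposition -/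
theorem dt (h : 4 ≤ Fintype.card T) (Y : Subgroup (Perm T)) (hn : Y.Normal) (hY : Y ≠ ⊥) :
    ∃ a b c d : T, a ≠ b ∧ a ≠ c ∧ a ≠ d ∧ b ≠ c ∧ b ≠ d ∧ c ≠ d ∧ swap a b * swap c d ∈ Y := by
  obtain ⟨⟨y, hy⟩, h1⟩ := Subgroup.ne_bot_iff_exists_ne_one.mp hY
  have h1' : y ≠ 1 := fun e => h1 (Subtype.ext e)
  obtain ⟨a, ha⟩ : ∃ a, y a ≠ a := by
    by_contra hh
    push Not at hh
    exact h1' (Equiv.ext hh)
  obtain ⟨c, c1, c2, c3⟩ := ex3 h a (y a) (y⁻¹ a)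
  have hz : swap (y a) (y c) * swap a c ∈ Y := by
    rw [← cjs, mul_assoc, mul_assoc]
    apply Y.mul_mem hy
    have := hn.conj_mem _ (Y.inv_mem hy) (swap a c)
    rwa [swap_inv, mul_assoc] at this
  have c4 : y c ≠ a := fun e => c3 (by rw [← e]; simp)
  have c5 : y a ≠ y c := fun e => c1 (y.injective e).symm
  by_cases c6 : y c = c
  · rw [c6] at hz
    obtain ⟨d, d1, d2, d3⟩ := ex3 h a (y a) c
    set b := y a with hb
    have hz' := hn.conj_mem _ hz (swap b d * swap b a * swap b c)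
    have e : ∀ s : Perm T, s * (swap b c * swap a c) * s⁻¹ =
        swap (s b) (s c) * swap (s a) (s c) := by
      intro s
      rw [← cjs, ← cjs]; group
    rw [e] at hz'
    have e1 : (swap b d * swap b a * swap b c : Perm T) b = c := by
      simp [swap_apply_def, c1, c2, d3.symm]
    have e2 : (swap b d * swap b a * swap b c : Perm T) c = a := by
      simp [swap_apply_def, ha.symm, d1.symm]
    have e3 : (swap b d * swap b a * swap b c : Perm T) a = d := by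
      simp [swap_apply_def, ha.symm, c1.symm]
    rw [e1, e2, e3] at hz'
    have := Y.mul_mem hz hz'
    rw [swap_comm c a, mul_assoc, ← mul_assoc (swap a c), swap_mul_self, one_mul] at this
    exact ⟨b, c, d, a, c2.symm, d2.symm, ha, d3.symm, c1, d1, this⟩
  · exact ⟨y a, y c, a, c, c5, ha, c2.symm, c4, c6, c1.symm, hz⟩

theorem dt_pow {a b c d : T} (h1 : a ≠ b) (h2 : a ≠ c) (h3 : a ≠ d) (h4 : b ≠ c) (h5 : b ≠ d)
    {p : ℕ} (hp : Odd p) : ((swap a b * swap c d) ^ p : Perm T) a = b := by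
  have hc : Commute (swap a b) (swap c d) := by
    have := cjs (swap a b) c d
    rw [swap_apply_of_ne_of_ne h2.symm h4.symm, swap_apply_of_ne_of_ne h3.symm h5.symm] at this
    exact mul_inv_eq_iff_eq_mul.mp this
  have h : (swap a b * swap c d : Perm T) ^ 2 = 1 := by
    rw [hc.mul_pow, sq, sq, swap_mul_self, swap_mul_self, one_mul]
  obtain ⟨m, rfl⟩ := hp
  rw [pow_succ, pow_mul, h, one_pow, one_mul, Perm.mul_apply, swap_apply_of_ne_of_ne h2 h3,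
    swap_apply_left]

theorem nonab (h : 5 ≤ Fintype.card T) (Y : Subgroup (Perm T)) (hn : Y.Normal) (hY : Y ≠ ⊥) :
    ∃ u ∈ Y, ∃ v ∈ Y, u * v ≠ v * u := by
  obtain ⟨a, b, c, d, h1, h2, h3, h4, h5, h6, hm⟩ := dt (by omega) Y hn hY
  obtain ⟨e, e1, e2, e3, e4⟩ := ex4 h a b c d
  refine ⟨_, hm, _, hn.conj_mem _ hm (swap d e), fun q => ?_⟩
  have := congrArg (fun s : Perm T => s c) q
  simp [swap_apply_def, h1, h2, h3, h4, h5, h6, e1, e2, e3, e4, h1.symm, h2.symm, h3.symm,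
    h4.symm, h5.symm, h6.symm, e1.symm, e2.symm, e3.symm, e4.symm] at this

theorem noncen (h : 4 ≤ Fintype.card T) {y : Perm T} (h1 : y ≠ 1) :
    ∃ s : Perm T, y⁻¹ * (s * y * s⁻¹) ≠ 1 := by
  obtain ⟨a, ha⟩ : ∃ a, y a ≠ a := by
    by_contra hh
    push Not at hh
    exact h1 (Equiv.ext hh)
  obtain ⟨c, c1, c2, -⟩ := ex3 h a (y a) a
  refine ⟨swap (y a) c, fun e => ?_⟩
  rw [inv_mul_eq_one] at e
  have := congrArg (fun s : Perm T => s a) e
  simp [swap_apply_of_ne_of_ne ha.symm c1.symm] at this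
  exact c2 this.symm
end dt

variable {Ω : Type*} [Fintype Ω] [DecidableEq Ω]

/-- the permutations induced on `Γ` -/
def res (Γ : Finset Ω) (L : Subgroup (Perm Ω)) : Subgroup (Perm Γ) where
  carrier := {σ | ∃ x ∈ L, ∀ y : Γ, x y = σ y}
  one_mem' := ⟨1, L.one_mem, fun _ => rfl⟩
  mul_mem' := by
    rintro σ τ ⟨x, hx, e⟩ ⟨x', hx', e'⟩
    exact ⟨x * x', L.mul_mem hx hx', fun y => by rw [Perm.mul_apply, e', e, Perm.mul_apply]⟩
  inv_mem' := by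
    rintro σ ⟨x, hx, e⟩
    refine ⟨x⁻¹, L.inv_mem hx, fun y => ?_⟩
    rw [Perm.inv_eq_iff_eq, e]; simp

theorem res_mul {Γ : Finset Ω} {x x' : Perm Ω} {σ τ : Perm Γ} (e : ∀ y : Γ, x y = σ y)
    (e' : ∀ y : Γ, x' y = τ y) : ∀ y : Γ, (x * x') y = (σ * τ) y := fun y => by
  rw [Perm.mul_apply, e', e, Perm.mul_apply]

theorem res_inv {Γ : Finset Ω} {x : Perm Ω} {σ : Perm Γ} (e : ∀ y : Γ, x y = σ y) :
    ∀ y : Γ, x⁻¹ y = σ⁻¹ y := fun y => by
  rw [Perm.inv_eq_iff_eq, e]; simp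

theorem res_pow {Γ : Finset Ω} {x : Perm Ω} {σ : Perm Γ} (e : ∀ y : Γ, x y = σ y) (n : ℕ) :
    ∀ y : Γ, (x ^ n) y = (σ ^ n) y := by
  induction n with
  | zero => intro y; rfl
  | succ n ih => rw [pow_succ, pow_succ]; exact res_mul ih e

/-- the set-up -/
structure St (G P : Subgroup (Perm Ω)) (Γ : Finset Ω) (p : ℕ) : Prop where
  pr : p.Prime
  le : P ≤ G
  fix : ∀ a ∈ P, ∀ y ∈ Γ, a y = y
  idx : ∀ y ∉ Γ, (stabilizer P y).index = p
  nrm : ∀ y : Ω, (stabilizer P y).Normal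
  sur : ∀ σ : Perm Γ, ∃ x ∈ G ⊓ Subgroup.normalizer (P : Set (Perm Ω)), ∀ y : Γ, x y = σ y

variable {G P : Subgroup (Perm Ω)} {Γ : Finset Ω} {p : ℕ}

theorem res_normal (s : St G P Γ p) {L : Subgroup (Perm Ω)}
    (h : ∀ x ∈ G ⊓ Subgroup.normalizer (P : Set (Perm Ω)), ∀ u ∈ L, x * u * x⁻¹ ∈ L) :
    (res Γ L).Normal := ⟨by
  rintro σ ⟨u, hu, e⟩ τ
  obtain ⟨x, hx, e'⟩ := s.sur τ
  exact ⟨_, h x hx u hu, res_mul (res_mul e' e) (res_inv e')⟩⟩

theorem St.mov (s : St G P Γ p) {y : Ω} (hy : y ∉ Γ) : ∃ a ∈ P, a y ≠ y := by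
  by_contra h
  push Not at h
  have : stabilizer P y = ⊤ := eq_top_iff.mpr fun a _ => h a a.2
  have h1 := s.idx y hy
  rw [this, Subgroup.index_top] at h1
  exact s.pr.one_lt.ne h1

theorem cjm {x : Perm Ω} (hx : x ∈ Subgroup.normalizer (P : Set (Perm Ω))) {a : Perm Ω}
    (ha : a ∈ P) : x * a * x⁻¹ ∈ P := (Subgroup.mem_normalizer_iff.mp hx a).mp ha

theorem St.pres (s : St G P Γ p) {x : Perm Ω} (hx : x ∈ Subgroup.normalizer (P : Set (Perm Ω)))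
    {y : Ω} (hy : y ∉ Γ) : x y ∉ Γ := by
  intro h
  obtain ⟨a, ha, e⟩ := s.mov hy
  have := s.fix _ (cjm hx ha) _ h
  simp at this
  exact e this

theorem St.presP (s : St G P Γ p) {a : Perm Ω} (ha : a ∈ P) {y : Ω} (hy : y ∉ Γ) : a y ∉ Γ :=
  s.pres (Subgroup.le_normalizer ha) hy

/-- the elements of the normaliser fixing each orbit -/
def MM (s : St G P Γ p) : Subgroup (Perm Ω) where
  carrier := {x | x ∈ G ⊓ Subgroup.normalizer (P : Set (Perm Ω)) ∧ ∀ y ∉ Γ, ∃ a ∈ P, x y = a y}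
  one_mem' := ⟨Subgroup.one_mem _, fun y _ => ⟨1, P.one_mem, rfl⟩⟩
  mul_mem' := by
    rintro x x' ⟨h, e⟩ ⟨h', e'⟩
    refine ⟨Subgroup.mul_mem _ h h', fun y hy => ?_⟩
    obtain ⟨a, ha, e1⟩ := e y hy
    obtain ⟨a', ha', e2⟩ := e' y hy
    refine ⟨x * a' * x⁻¹ * a, P.mul_mem (cjm h.2 ha') ha, ?_⟩
    rw [Perm.mul_apply, e2, Perm.mul_apply, ← e1]; simp
  inv_mem' := by
    rintro x ⟨h, e⟩
    refine ⟨Subgroup.inv_mem _ h, fun y hy => ?_⟩
    obtain ⟨a, ha, e1⟩ := e _ (s.pres (Subgroup.inv_mem _ h.2) hy)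
    refine ⟨a⁻¹, P.inv_mem ha, ?_⟩
    rw [eq_comm, Perm.inv_eq_iff_eq, ← e1]; simp

theorem MM_cj (s : St G P Γ p) : ∀ x ∈ G ⊓ Subgroup.normalizer (P : Set (Perm Ω)),
    ∀ u ∈ MM s, x * u * x⁻¹ ∈ MM s := by
  rintro x hx u ⟨h, e⟩
  refine ⟨Subgroup.mul_mem _ (Subgroup.mul_mem _ hx h) (Subgroup.inv_mem _ hx), fun y hy => ?_⟩
  obtain ⟨a, ha, e1⟩ := e _ (s.pres (Subgroup.inv_mem _ hx.2) hy)
  exact ⟨_, cjm hx.2 ha, congrArg x e1⟩

theorem KK_cj (s : St G P Γ p) : ∀ x ∈ G ⊓ Subgroup.normalizer (P : Set (Perm Ω)),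
    ∀ u ∈ MM s ⊓ Subgroup.centralizer (P : Set (Perm Ω)),
      x * u * x⁻¹ ∈ MM s ⊓ Subgroup.centralizer (P : Set (Perm Ω)) := by
  rintro x hx u ⟨h, e⟩
  refine ⟨MM_cj s x hx u h, Subgroup.mem_centralizer_iff.mpr fun a ha => ?_⟩
  have := Subgroup.mem_centralizer_iff.mp e _ (cjm (Subgroup.inv_mem _ hx.2) ha)
  calc a * (x * u * x⁻¹) = x * (x⁻¹ * a * x⁻¹⁻¹ * u) * x⁻¹ := by group
    _ = x * u * x⁻¹ * a := by rw [this]; group

theorem St.powp (s : St G P Γ p) {a : Perm Ω} (ha : a ∈ P) : a ^ p = 1 := by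
  ext y
  by_cases hy : y ∈ Γ
  · exact s.fix _ (P.pow_mem ha p) y hy
  · have := s.nrm y
    have h := (stabilizer P y).pow_index_mem ⟨a, ha⟩
    rw [s.idx y hy] at h
    exact h

theorem St.powK (s : St G P Γ p) {u : Perm Ω}
    (hu : u ∈ MM s ⊓ Subgroup.centralizer (P : Set (Perm Ω))) {y : Ω} (hy : y ∉ Γ) :
    (u ^ p) y = y := by
  obtain ⟨c, hc, e⟩ := hu.1.2 y hy
  have h : ∀ i : ℕ, (u ^ i) y = (c ^ i) y := by
    intro i
    induction i with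
    | zero => rfl
    | succ i ih =>
      have := Subgroup.mem_centralizer_iff.mp hu.2 _ (P.pow_mem hc i)
      rw [pow_succ', Perm.mul_apply, ih, ← Perm.mul_apply, ← this, Perm.mul_apply, e, pow_succ,
        Perm.mul_apply]
  rw [h, s.powp hc]; rfl

/-- agreement at a point is agreement on its orbit -/
theorem St.ag (s : St G P Γ p) {a b c : Perm Ω} (ha : a ∈ P) (hb : b ∈ P) (hc : c ∈ P) {y : Ω}
    (e : a y = b y) : a (c y) = b (c y) := by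
  have h1 : (⟨b⁻¹ * a, P.mul_mem (P.inv_mem hb) ha⟩ : P) ∈ stabilizer P y := by
    change b⁻¹ (a y) = y
    rw [e]; simp
  have h2 := (s.nrm y).conj_mem _ h1 ⟨c⁻¹, P.inv_mem hc⟩
  change c⁻¹ (b⁻¹ (a (c⁻¹⁻¹ y))) = y at h2
  rw [inv_inv, Perm.inv_eq_iff_eq, Perm.inv_eq_iff_eq] at h2
  exact h2

theorem St.agm (s : St G P Γ p) {a b a' b' : Perm Ω} (ha : a ∈ P) (hb : b ∈ P) (hb' : b' ∈ P)
    {y : Ω} (e : a y = b y) (e' : a' y = b' y) : (a * a') y = (b * b') y := by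
  rw [Perm.mul_apply, e', s.ag ha hb hb' e, Perm.mul_apply]

theorem St.agz (s : St G P Γ p) {a b : Perm Ω} (ha : a ∈ P) (hb : b ∈ P) {y : Ω}
    (e : a y = b y) (m : ℤ) : (a ^ m) y = (b ^ m) y := by
  have := s.nrm y
  have h : ∀ u v : P, (u : Perm Ω) y = (v : Perm Ω) y ↔
      (QuotientGroup.mk u : P ⧸ stabilizer P y) = QuotientGroup.mk v := by
    intro u v
    rw [QuotientGroup.eq]
    change _ ↔ (u : Perm Ω)⁻¹ ((v : Perm Ω) y) = y
    rw [Perm.inv_eq_iff_eq, eq_comm]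
  have h1 := (h ⟨a, ha⟩ ⟨b, hb⟩).mp e
  have := (h (⟨a, ha⟩ ^ m) (⟨b, hb⟩ ^ m)).mpr (by
    rw [QuotientGroup.mk_zpow, QuotientGroup.mk_zpow, h1])
  exact this

/-- `x` acts on the orbit of `y` with multiplier `e` -/
def Ch (P : Subgroup (Perm Ω)) (x : Perm Ω) (y : Ω) (e : ℤ) : Prop :=
  ∀ a ∈ P, (x * a * x⁻¹) y = (a ^ e) y

theorem St.ch (s : St G P Γ p) {x : Perm Ω} (hx : x ∈ MM s) {y : Ω} (hy : y ∉ Γ) :
    ∃ e, Ch P x y e := by
  have := s.nrm y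
  have : Fact p.Prime := ⟨s.pr⟩
  have : IsCyclic (P ⧸ stabilizer P y) := isCyclic_of_prime_card (p := p) (s.idx y hy)
  let f : P →* P := MonoidHom.mk' (fun a => ⟨x * a * x⁻¹, cjm hx.1.2 a.2⟩) (fun a b => by
    apply Subtype.ext
    simp [mul_assoc])
  have hf : stabilizer P y ≤ (stabilizer P y).comap f := by
    intro a ha
    change x ((a : Perm Ω) (x⁻¹ y)) = y
    obtain ⟨c, hc, e⟩ := ((MM s).inv_mem hx).2 y hy
    have h1 : (a : Perm Ω) y = (1 : Perm Ω) y := ha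
    have h2 := s.ag a.2 P.one_mem hc h1
    rw [← e] at h2
    rw [h2]; simp
  obtain ⟨m, hm⟩ := (QuotientGroup.map _ _ f hf).map_cyclic
  refine ⟨m, fun a ha => ?_⟩
  have h1 := hm (QuotientGroup.mk ⟨a, ha⟩)
  rw [QuotientGroup.map_mk, ← QuotientGroup.mk_zpow, QuotientGroup.eq] at h1
  change (x * a * x⁻¹)⁻¹ ((a ^ m) y) = y at h1
  rw [Perm.inv_eq_iff_eq] at h1
  exact h1.symm

theorem St.ch_orb (s : St G P Γ p) {x : Perm Ω} (hx : x ∈ MM s) {y : Ω} {e : ℤ}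
    (h : Ch P x y e) {c : Perm Ω} (hc : c ∈ P) : Ch P x (c y) e := fun a ha =>
  s.ag (cjm hx.1.2 ha) (P.zpow_mem ha e) hc (h a ha)

theorem St.ch_mul (s : St G P Γ p) {x x' : Perm Ω} (hx : x ∈ MM s) (hx' : x' ∈ MM s) {y : Ω}
    {e e' : ℤ} (h : Ch P x y e) (h' : Ch P x' y e') : Ch P (x * x') y (e' * e) := by
  intro a ha
  have e1 : x * x' * a * (x * x')⁻¹ = x * (x' * a * x'⁻¹) * x⁻¹ := by group
  rw [e1, h _ (cjm hx'.1.2 ha), zpow_mul]
  exact s.agz (cjm hx'.1.2 ha) (P.zpow_mem ha e') (h' a ha) e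

theorem St.cen (s : St G P Γ p) {x x' : Perm Ω} (hx : x ∈ MM s) (hx' : x' ∈ MM s)
    (h : ∀ y ∉ Γ, ∃ e, Ch P x y e ∧ Ch P x' y e) :
    x⁻¹ * x' ∈ MM s ⊓ Subgroup.centralizer (P : Set (Perm Ω)) := by
  refine ⟨(MM s).mul_mem ((MM s).inv_mem hx) hx', Subgroup.mem_centralizer_iff.mpr fun a ha => ?_⟩
  have : x * a * x⁻¹ = x' * a * x'⁻¹ := by
    ext y
    by_cases hy : y ∈ Γ
    · rw [s.fix _ (cjm hx.1.2 ha) y hy, s.fix _ (cjm hx'.1.2 ha) y hy]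
    · obtain ⟨e, h1, h2⟩ := h y hy
      rw [h1 a ha, h2 a ha]
  calc a * (x⁻¹ * x') = x⁻¹ * (x * a * x⁻¹) * x' := by group
    _ = x⁻¹ * x' * a := by rw [this]; group

theorem St.dvd (s : St G P Γ p) {a : Perm Ω} (ha : a ∈ P) {y : Ω} (h : a y ≠ y) {m : ℤ}
    (e : (a ^ m) y = y) : (p : ℤ) ∣ m := by
  by_contra hn
  have hc : IsCoprime m (p : ℤ) :=
    ((Nat.prime_iff_prime_int.mp s.pr).irreducible.coprime_iff_not_dvd.mpr hn).symm
  obtain ⟨u, v, huv⟩ := hc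
  have h1 := s.agz (P.zpow_mem ha m) P.one_mem (y := y) e u
  rw [one_zpow, ← zpow_mul] at h1
  have h2 : a = a ^ (m * u) := by
    conv_lhs => rw [← zpow_one a, ← huv, zpow_add, mul_comm v, zpow_mul a p, zpow_natCast,
      s.powp ha, one_zpow, mul_one, mul_comm u]
  exact h (by rw [h2]; exact h1)

theorem St.ch_congr (s : St G P Γ p) {x : Perm Ω} {y : Ω} {e e' : ℤ} (h : Ch P x y e)
    (hd : (p : ℤ) ∣ e' - e) : Ch P x y e' := by
  intro a ha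
  obtain ⟨c, hc⟩ := hd
  rw [h a ha, show e' = e + p * c by omega, zpow_add, zpow_mul, zpow_natCast, s.powp ha, one_zpow,
    mul_one]

theorem St.del (s : St G P Γ p) {x : Perm Ω} (hx : x ∈ MM s) {y : Ω} {e : ℤ} (h : Ch P x y e)
    {a : Perm Ω} (ha : a ∈ P) (f : ℤ) : (x * a * x⁻¹ * a ^ (-f)) y = (a ^ (e - f)) y := by
  rw [sub_eq_add_neg, zpow_add]
  exact s.agm (cjm hx.1.2 ha) (P.zpow_mem ha e) (P.zpow_mem ha _) (h a ha) rfl

/-- an isolated multiplier gives an element supported on one orbit -/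
theorem St.iso (s : St G P Γ p) {x : Perm Ω} (hx : x ∈ MM s) {y : Ω} (hy : y ∉ Γ) {e e2 e3 : ℤ}
    (h : Ch P x y e) (h2 : ¬ (p : ℤ) ∣ e - e2) (h3 : ¬ (p : ℤ) ∣ e - e3)
    (ho : ∀ z ∉ Γ, z ∉ orbit P y → Ch P x z e2 ∨ Ch P x z e3) :
    ∃ c ∈ P, c ≠ 1 ∧ ∀ z, z ∉ orbit P y → c z = z := by
  obtain ⟨a, ha, hay⟩ := s.mov hy
  have hb : x * a * x⁻¹ * a ^ (-e2) ∈ P := P.mul_mem (cjm hx.1.2 ha) (P.zpow_mem ha _)
  set b := x * a * x⁻¹ * a ^ (-e2) with hbd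
  have key : ∀ z f, Ch P x z f →
      (x * b * x⁻¹ * b ^ (-e3)) z = (a ^ ((f - e2) * (f - e3))) z := by
    intro z f hz
    rw [s.del hx hz hb, zpow_mul]
    exact s.agz hb (P.zpow_mem ha _) (s.del hx hz ha e2) _
  refine ⟨x * b * x⁻¹ * b ^ (-e3), P.mul_mem (cjm hx.1.2 hb) (P.zpow_mem hb _), fun q => ?_,
    fun z hz => ?_⟩
  · have := key y e h
    rw [q] at this
    have := s.dvd ha hay this.symm
    rcases (Nat.prime_iff_prime_int.mp s.pr).dvd_or_dvd this with h | h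
    · exact h2 h
    · exact h3 h
  · by_cases hΓ : z ∈ Γ
    · exact s.fix _ (P.mul_mem (cjm hx.1.2 hb) (P.zpow_mem hb _)) z hΓ
    · rcases ho z hΓ hz with h | h
      · rw [key z _ h]; simp
      · rw [key z _ h]; simp

end Cfsg.Agent.P4.Mi
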