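import Cfsg.Agent.P4.Defs

/-!
Numerics for the doubly transitive case with imprimitive point stabiliser, degrees up to `30000`.
-/

set_option autoImplicit false

namespace Cfsg.Agent.P4
open Nat

namespace NI1

lemma step_le (x u v r : ℕ) (hr : 0 < r) (h : u * r ≤ v) : x * u / v ≤ x / r := by
  rcases Nat.eq_zero_or_pos u with rfl | hu
  · simp
  rw [Nat.le_div_iff_mul_le hr]
  have h1 : x * u / v * v ≤ x * u := Nat.div_mul_le_self _ _
  have h2 : x * u / v * r * u ≤ x * u := by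
    calc x * u / v * r * u = x * u / v * (u * r) := by ring
      _ ≤ x * u / v * v := Nat.mul_le_mul_left _ h
      _ ≤ x * u := h1
  exact Nat.le_of_mul_le_mul_right h2 hu

lemma Qs_le {m b r : ℕ} (hr : 0 < r) (h : m = b * r + 1) (j : ℕ) :
    Qs m b j ≤ m * (m - 1) / 2 / r ^ j := by
  induction j with
  | zero => simp [Qs]
  | succ j ih =>
    have h1 : (b - 1 - j) * r ≤ m - j := by
      rcases Nat.eq_zero_or_pos (b - 1 - j) with h0 | h0
      · rw [h0]; simp
      · obtain ⟨u, rfl⟩ : ∃ u, b = u + 1 + j := ⟨b - 1 - j, by omega⟩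
        have : u + 1 + j - 1 - j = u := by omega
        rw [this, h]
        have : j ≤ j * r := Nat.le_mul_of_pos_right _ hr
        have e : (u + 1 + j) * r = u * r + r + j * r := by ring
        omega
    calc Qs m b (j + 1) = Qs m b j * (b - 1 - j) / (m - j) := rfl
      _ ≤ Qs m b j / r := step_le _ _ _ _ hr h1
      _ ≤ m * (m - 1) / 2 / r ^ j / r := Nat.div_le_div_right ih
      _ = _ := by rw [Nat.div_div_eq_div_mul _ (r ^ j), ← pow_succ]

lemma tri_mono {m m' : ℕ} (h : m ≤ m') : m * (m - 1) / 2 ≤ m' * (m' - 1) / 2 :=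
  Nat.div_le_div_right (Nat.mul_le_mul h (by omega))

lemma Cs_mono {m m' D : ℕ} (h0 : D ≤ m) (hm : 0 < m) (h : m ≤ m') (j : ℕ) :
    Cs m D j ≤ Cs m' D j := by
  induction j with
  | zero => exact tri_mono h
  | succ j ih =>
    show Cs m D j * (m - D) / m ≤ Cs m' D j * (m' - D) / m'
    rw [Nat.le_div_iff_mul_le (by omega)]
    have h1 : Cs m D j * (m - D) / m * m ≤ Cs m D j * (m - D) := Nat.div_mul_le_self _ _
    obtain ⟨u, rfl⟩ : ∃ u, m = D + u := ⟨m - D, by omega⟩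
    obtain ⟨v, rfl⟩ : ∃ v, m' = D + u + v := ⟨m' - (D + u), by omega⟩
    have e1 : D + u - D = u := by omega
    have e2 : D + u + v - D = u + v := by omega
    rw [e1] at h1 ⊢
    rw [e2]
    set y := Cs (D + u) D j * u / (D + u)
    have h2 : y ≤ Cs (D + u) D j := by
      have : y * (D + u) ≤ Cs (D + u) D j * (D + u) :=
        h1.trans (Nat.mul_le_mul_left _ (by omega))
      exact Nat.le_of_mul_le_mul_right this hm
    calc y * (D + u + v) = y * (D + u) + y * v := by ring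
      _ ≤ Cs (D + u) D j * u + Cs (D + u) D j * v :=
        Nat.add_le_add h1 (Nat.mul_le_mul_right _ h2)
      _ = Cs (D + u) D j * (u + v) := by ring
      _ ≤ _ := Nat.mul_le_mul_right _ ih

def cOK (B c : ℕ) : Bool := (List.range B).all fun w => Nat.ble (w ! * 2 ^ w) (c ^ w)

lemma cOK_spec {B c b : ℕ} (h : cOK B c = true) (hb : b ≤ B) : ∀ w < b, w ! * 2 ^ w ≤ c ^ w := by
  intro w hw
  simp only [cOK, List.all_eq_true, List.mem_range, Nat.ble_eq] at h
  exact h w (by omega)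

def okB (m L r f : ℕ) : Bool :=
  [2, 3, 4, 5, 6, 7, 8, 9, 10, 11, 12, 13, 14, 15, 16, 17].any fun j =>
    Nat.ble (j * (Nat.log2 (m * f) + 1) + m * (m - 1) / 2 / r ^ j) L

def lp (m L : ℕ) : ℕ → ℕ → ℕ → Bool
  | 0, _, _ => true
  | k + 1, r, f => okB m L r f && lp m L k (r + 1) ((r + 1) * f)

lemma lp_spec (m L : ℕ) : ∀ k r, lp m L k r (r !) = true → ∀ s, r ≤ s → s < r + k →
    okB m L s (s !) = true := by
  intro k
  induction k with
  | zero => intro r _ s h1 h2; omega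
  | succ k ih =>
    intro r h s h1 h2
    simp only [lp, Bool.and_eq_true] at h
    rcases Nat.eq_or_lt_of_le h1 with rfl | h3
    · exact h.1
    · exact ih (r + 1) (by rw [Nat.factorial_succ]; exact h.2) s h3 (by omega)

lemma okB_spec {m m2 b r g L : ℕ} (hr : 0 < r) (h : m = b * r + 1) (hm : m ≤ m2)
    (hB : IBB m b r g) (ho : okB m2 L r (r !) = true) : g ≤ 2 ^ L := by
  simp only [okB, List.any_eq_true, Nat.ble_eq] at ho
  obtain ⟨j, -, hj⟩ := ho
  refine (hB j).trans (le_trans ?_ (Nat.pow_le_pow_right (by norm_num) hj))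
  rw [pow_add, mul_comm j, pow_mul]
  refine Nat.mul_le_mul (Nat.pow_le_pow_left ?_ _) (Nat.pow_le_pow_right (by norm_num) ?_)
  · exact (Nat.mul_le_mul_right _ hm).trans Nat.lt_log2_self.le
  · exact (Qs_le hr h j).trans (Nat.div_le_div_right (tri_mono hm))

def chkT (T m1 m2 R x y : ℕ) : Bool :=
  Nat.ble 1 T && lp m2 (Nat.log2 T) (R - 1) 2 2 &&
  ((Nat.ble ((m2 - 1) / (R + 1)) 8 && Nat.ble 2 x && cOK ((m2 - 1) / (R + 1)) x &&
      Nat.ble (m2 + 1) (2 ^ (y + 1)) &&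
      Nat.ble (m2 ^ (y + 1) * x ^ (m2 - 1)) (T * 2 ^ (m2 - 1))) ||
    (Nat.ble (x + (m2 - 1) / (R + 1)) m1 &&
      Nat.ble (m2 ^ (x + (m2 - 1) / (R + 1) + y) * 2 ^ Cs m2 x y) T))

lemma chkT_spec {T m1 m2 R x y m g : ℕ} (h : chkT T m1 m2 R x y = true) (h1 : m1 ≤ m)
    (h2 : m ≤ m2) (hI : IB m g) : g ≤ T := by
  obtain ⟨b, r, hb, hr, hm, hA, hB, hC⟩ := hI
  simp only [chkT, Bool.and_eq_true, Bool.or_eq_true, Nat.ble_eq] at h
  obtain ⟨⟨hT, hl⟩, h⟩ := h
  have hm0 : 0 < m := by omega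
  by_cases hR : r ≤ R
  · have := lp_spec m2 (Nat.log2 T) (R - 1) 2 hl r hr (by omega)
    exact (okB_spec (by omega) hm h2 hB this).trans (Nat.log2_self_le (by omega))
  have hbB : b ≤ (m2 - 1) / (R + 1) := by
    rw [Nat.le_div_iff_mul_le (by omega)]
    have : b * (R + 1) ≤ b * r := Nat.mul_le_mul_left _ (by omega)
    omega
  rcases h with ⟨⟨⟨⟨-, hx⟩, hc⟩, hy⟩, h⟩ | ⟨hx, h⟩
  · have h3 := hA x y (cOK_spec hc hbB) (by omega)
    have h4 : g * 2 ^ (m2 - 1) ≤ T * 2 ^ (m2 - 1) := by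
      have e : m2 - 1 = (m - 1) + (m2 - m) := by omega
      refine le_trans ?_ h
      rw [e, pow_add 2 (m - 1), pow_add x (m - 1), ← mul_assoc, ← mul_assoc]
      refine Nat.mul_le_mul (h3.trans ?_) (Nat.pow_le_pow_left hx _)
      exact Nat.mul_le_mul_right _ (Nat.pow_le_pow_left h2 _)
    exact Nat.le_of_mul_le_mul_right h4 (by positivity)
  · refine (hC x y (by omega)).trans (le_trans ?_ h)
    refine Nat.mul_le_mul ?_ (Nat.pow_le_pow_right (by norm_num) (Cs_mono (by omega) hm0 h2 y))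
    exact (Nat.pow_le_pow_left h2 _).trans (Nat.pow_le_pow_right (by omega) (by omega))

def cov (K M : ℕ) : ℕ → List (ℕ × ℕ × ℕ × ℕ) → Bool
  | m1, [] => Nat.ble (M + 1) m1
  | m1, (m2, R, x, y) :: l =>
    chkT (4 ^ (m1 + K) / (m2 + K) ^ K) m1 m2 R x y && cov K M (m2 + 1) l

lemma fin {K m1 m2 m n g : ℕ} (h4 : 4 ≤ n) (h1 : m1 ≤ m) (h2 : m ≤ m2) (hmn : m ≤ n)
    (hn : n ≤ m + K) (hg : g ≤ 4 ^ (m1 + K) / (m2 + K) ^ K) : n ! * g ≤ 4 ^ n * m ! := by
  obtain ⟨d, rfl⟩ : ∃ d, n = m + d := ⟨n - m, by omega⟩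
  obtain ⟨k, rfl⟩ : ∃ k, K = d + k := ⟨K - d, by omega⟩
  have hp : 0 < (m2 + (d + k)) ^ (d + k) := Nat.pow_pos (by omega)
  rw [Nat.le_div_iff_mul_le hp] at hg
  have h5 : (m + d)! ≤ m ! * (m + d) ^ d := by
    have := Nat.factorial_mul_descFactorial (show d ≤ m + d by omega)
    rw [Nat.add_sub_cancel] at this
    rw [← this]
    exact Nat.mul_le_mul_left _ (Nat.descFactorial_le_pow _ _)
  have h6 : g * (m + d) ^ d * 4 ^ k ≤ 4 ^ (m + d) * 4 ^ k := by
    calc g * (m + d) ^ d * 4 ^ k ≤ g * (m2 + (d + k)) ^ d * (m2 + (d + k)) ^ k :=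
          Nat.mul_le_mul (Nat.mul_le_mul_left _ (Nat.pow_le_pow_left (by omega) _))
            (Nat.pow_le_pow_left (by omega) _)
      _ = g * (m2 + (d + k)) ^ (d + k) := by rw [pow_add, mul_assoc]
      _ ≤ 4 ^ (m1 + (d + k)) := hg
      _ ≤ 4 ^ (m + d + k) := Nat.pow_le_pow_right (by norm_num) (by omega)
      _ = _ := pow_add _ _ _
  have h7 := Nat.le_of_mul_le_mul_right h6 (by positivity)
  calc (m + d)! * g ≤ m ! * (m + d) ^ d * g := Nat.mul_le_mul_right _ h5
    _ = g * (m + d) ^ d * m ! := by ring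
    _ ≤ _ := Nat.mul_le_mul_right _ h7

lemma cov_spec {K M m n g : ℕ} (h4 : 4 ≤ n) (hM : m ≤ M) (hmn : m ≤ n) (hn : n ≤ m + K)
    (hI : IB m g) : ∀ (l : List (ℕ × ℕ × ℕ × ℕ)) (m1 : ℕ), cov K M m1 l = true → m1 ≤ m →
    n ! * g ≤ 4 ^ n * m ! := by
  intro l
  induction l with
  | nil => intro m1 h h1; simp only [cov, Nat.ble_eq] at h; omega
  | cons a l ih =>
    obtain ⟨m2, R, x, y⟩ := a
    intro m1 h h1
    simp only [cov, Bool.and_eq_true] at h
    by_cases h2 : m ≤ m2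
    · exact fin h4 h1 h2 hmn hn (chkT_spec h.1 h1 h2 hI)
    · exact ih (m2 + 1) h.2 (by omega)

lemma cov1 : cov 14 3000 307 [(331, 55, 5, 8), (357, 59, 5, 8), (376, 62, 5, 8), (396, 65, 5, 8),
    (417, 69, 5, 8), (439, 73, 5, 8), (462, 76, 5, 8), (479, 79, 5, 8), (496, 82, 5, 8),
    (513, 85, 5, 9), (525, 65, 6, 9), (544, 67, 6, 9), (563, 70, 6, 9), (583, 72, 6, 9),
    (614, 76, 6, 9), (647, 80, 6, 9), (681, 85, 6, 9), (717, 89, 6, 9), (774, 96, 6, 9),
    (835, 104, 6, 9), (901, 112, 6, 9), (972, 121, 6, 9), (1087, 135, 6, 10), (1216, 151, 6, 10),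
    (1361, 170, 6, 10), (1522, 190, 6, 10), (1703, 121, 127, 120), (2006, 133, 138, 134),
    (2541, 141, 154, 156), (3000, 42, 174, 168)] = true := by decide +kernel

lemma cov2 : cov 58 30000 2943 [(4120, 316, 208, 202), (5769, 62, 249, 249), (8078, 38, 310, 295),
    (11310, 28, 368, 362), (15835, 24, 445, 438), (22170, 21, 530, 534),
    (30000, 18, 640, 622)] = true := by decide +kernel

/-- exact check for one factorisation `m = b r + 1` -/
def okS (T m b : ℕ) : Bool :=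
  ([1, 2, 3, 4, 5, 6, 7].any fun j =>
    Nat.ble ((m * ((m - 1) / b)!) ^ j * 2 ^ Qs m b j) T) ||
  (Nat.ble b 5 && cOK b b &&
    Nat.ble (m ^ (Nat.log2 m + 1) * b ^ (m - 1)) (T * 2 ^ (m - 1)))

def smT (T m : ℕ) : Bool :=
  (List.range ((m + 1) / 2)).all fun b => Nat.ble b 1 || !Nat.beq ((m - 1) % b) 0 || okS T m b

lemma smT_spec {T m g : ℕ} (h : smT T m = true) (hI : IB m g) : g ≤ T := by
  obtain ⟨b, r, hb, hr, hm, hA, hB, -⟩ := hI
  simp only [smT, List.all_eq_true, List.mem_range] at h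
  have hbr : b * 2 ≤ b * r := Nat.mul_le_mul_left _ hr
  have h1 := h b (by omega)
  have e1 : m - 1 = b * r := by omega
  have e2 : (m - 1) % b = 0 := by rw [e1]; exact Nat.mul_mod_right _ _
  have e3 : (m - 1) / b = r := by rw [e1]; exact Nat.mul_div_cancel_left _ (by omega)
  simp only [okS, e2, e3, Bool.or_eq_true, Nat.ble_eq, Bool.and_eq_true, List.any_eq_true,
    Nat.beq_refl, Bool.not_true, Bool.false_eq_true, or_false] at h1
  rcases h1 with h1 | ⟨j, -, hj⟩ | ⟨⟨-, hc⟩, h2⟩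
  · omega
  · exact (hB j).trans hj
  · have h3 := hA b (Nat.log2 m) (cOK_spec hc le_rfl) Nat.lt_log2_self
    exact Nat.le_of_mul_le_mul_right (h3.trans h2) (by positivity)

def smN (n : ℕ) : Bool :=
  (List.range (tbl.getD n 0 - 1)).all fun d => smT (4 ^ n / n.descFactorial d) (n - d)

lemma small : (List.range 321).all smN = true := by decide +kernel

end NI1

open NI1 in
theorem ni1 {n m g : ℕ} (h9 : 9 ≤ n) (h3 : n ≤ 30000) (hm : m ≤ n) (hk : n + 1 < m + kb n)
    (hI : IB m g) : n ! * g ≤ 4 ^ n * m ! := by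
  by_cases h1 : n ≤ 320
  · have hs := small
    simp only [List.all_eq_true, List.mem_range, smN] at hs
    rw [kb, if_pos h1] at hk
    have h2 := hs n (by omega) (n - m) (by omega)
    rw [Nat.sub_sub_self hm] at h2
    have h4 := smT_spec h2 hI
    have hp : 0 < n.descFactorial (n - m) := Nat.descFactorial_pos.2 (by omega)
    rw [Nat.le_div_iff_mul_le hp] at h4
    have h5 := Nat.factorial_mul_descFactorial (show n - m ≤ n by omega)
    rw [Nat.sub_sub_self hm] at h5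
    rw [← h5]
    calc m ! * n.descFactorial (n - m) * g = g * n.descFactorial (n - m) * m ! := by ring
      _ ≤ _ := Nat.mul_le_mul_right _ h4
  by_cases h2 : n ≤ 3000
  · rw [kb, if_neg h1, if_pos h2] at hk
    exact cov_spec (K := 14) (M := 3000) (by omega) (by omega) hm (by omega) hI _ _ cov1 (by omega)
  · rw [kb, if_neg h1, if_neg h2, if_pos h3] at hk
    exact cov_spec (K := 58) (M := 30000) (by omega) (by omega) hm (by omega) hI _ _ cov2
      (by omega)

end Cfsg.Agent.P4
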