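import Cfsg.Agent.P4.Defs

/-!
The numerical bound in the doubly transitive case, large degree.
-/

set_option autoImplicit false

namespace Cfsg.Agent.P4
open Nat
namespace NI2

theorem fac_le {m n : ℕ} (h : m ≤ n) : n ! ≤ n ^ (n - m) * m ! := by
  have h1 := Nat.factorial_mul_descFactorial (show n - m ≤ n by omega)
  rw [show n - (n - m) = m by omega] at h1
  rw [← h1, mul_comm]
  exact Nat.mul_le_mul_right _ (Nat.descFactorial_le_pow _ _)

theorem qs_le {m b : ℕ} (h : 2 * b ≤ m) : ∀ j, 2 ^ j * Qs m b j ≤ m * (m - 1) / 2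
  | 0 => by simp [Qs]
  | j + 1 => by
    refine le_trans ?_ (qs_le h j)
    rw [pow_succ, mul_assoc]
    refine Nat.mul_le_mul_left _ ?_
    show 2 * (Qs m b j * (b - 1 - j) / (m - j)) ≤ Qs m b j
    rcases Nat.eq_zero_or_pos (m - j) with h0 | h0
    · simp [h0]
    · have h1 := Nat.div_mul_le_self (Qs m b j * (b - 1 - j)) (m - j)
      have h2 : Qs m b j * (2 * (b - 1 - j)) ≤ Qs m b j * (m - j) :=
        Nat.mul_le_mul_left _ (by omega)
      refine Nat.le_of_mul_le_mul_right ?_ h0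
      nlinarith

theorem cs_step {m D : ℕ} (hm : 0 < m) (hD : D ≤ m) (j : ℕ) :
    ∀ i, Cs m D (j + i) * (m + i * D) ≤ Cs m D j * m
  | 0 => by simp
  | i + 1 => by
    have ih := cs_step hm hD j i
    have h1 : Cs m D (j + (i + 1)) * m ≤ Cs m D (j + i) * (m - D) := by
      rw [← add_assoc]
      exact Nat.div_mul_le_self _ _
    have h2 : (m - D) * (m + (i + 1) * D) ≤ m * (m + i * D) := by
      obtain ⟨e, rfl⟩ := Nat.exists_eq_add_of_le hD
      rw [Nat.add_sub_cancel_left]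
      nlinarith [Nat.zero_le (i * D * D), Nat.zero_le (D * D)]
    refine Nat.le_of_mul_le_mul_right ?_ hm
    calc Cs m D (j + (i + 1)) * (m + (i + 1) * D) * m
        = Cs m D (j + (i + 1)) * m * (m + (i + 1) * D) := by ring
      _ ≤ Cs m D (j + i) * (m - D) * (m + (i + 1) * D) := Nat.mul_le_mul_right _ h1
      _ = Cs m D (j + i) * ((m - D) * (m + (i + 1) * D)) := by ring
      _ ≤ Cs m D (j + i) * (m * (m + i * D)) := Nat.mul_le_mul_left _ h2
      _ = Cs m D (j + i) * (m + i * D) * m := by ring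
      _ ≤ Cs m D j * m * m := Nat.mul_le_mul_right _ ih

theorem cs_le {m D h : ℕ} (hm : 0 < m) (hD : D ≤ m) (hh : m ≤ h * D) :
    ∀ l, 2 ^ l * Cs m D (l * h) ≤ m * (m - 1) / 2
  | 0 => by simp [Cs]
  | l + 1 => by
    refine le_trans ?_ (cs_le hm hD hh l)
    rw [pow_succ, mul_assoc, add_mul, one_mul]
    refine Nat.mul_le_mul_left _ (Nat.le_of_mul_le_mul_right ?_ hm)
    refine le_trans ?_ (cs_step hm hD (l * h) h)
    have : Cs m D (l * h + h) * m ≤ Cs m D (l * h + h) * (h * D) := Nat.mul_le_mul_left _ hh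
    nlinarith

theorem half {m L Q : ℕ} (hm : 0 < m) (hL : m ≤ 2 ^ L) (h : 2 ^ L * Q ≤ m * (m - 1) / 2) :
    2 * Q ≤ m := by
  have h1 : m * Q ≤ 2 ^ L * Q := Nat.mul_le_mul_right _ hL
  have h2 : m * (m - 1) / 2 * 2 ≤ m * (m - 1) := Nat.div_mul_le_self _ _
  have h3 : m * (m - 1) ≤ m * m := Nat.mul_le_mul_left _ (by omega)
  refine Nat.le_of_mul_le_mul_left ?_ hm
  nlinarith

theorem grow : ∀ l, 15 ≤ l → ((l + 1) * (l + 1) + 13 * (l + 1) + 3) ^ 2 ≤ 9 * 2 ^ l := by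
  intro l hl
  induction l, hl using Nat.le_induction with
  | base => norm_num
  | succ l hl ih =>
    rw [pow_succ 2 l]
    have : ((l + 1 + 1) * (l + 1 + 1) + 13 * (l + 1 + 1) + 3) ^ 2 ≤
        2 * ((l + 1) * (l + 1) + 13 * (l + 1) + 3) ^ 2 := by
      obtain ⟨e, rfl⟩ := Nat.exists_eq_add_of_le hl
      ring_nf
      nlinarith [Nat.zero_le e, Nat.zero_le (e ^ 2), Nat.zero_le (e ^ 3), Nat.zero_le (e ^ 4)]
    omega

theorem exL {n : ℕ} (hn : 30000 < n) :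
    ∃ L, 15 ≤ L ∧ n ≤ 2 ^ L ∧ L * L + 13 * L ≤ 3 * n.sqrt := by
  have hs : 173 ≤ n.sqrt := Nat.le_sqrt.2 (by omega)
  by_cases h : n < 2 ^ 15
  · exact ⟨15, le_rfl, h.le, by omega⟩
  · have h1 : 15 ≤ Nat.log 2 n := Nat.le_log_of_pow_le (by norm_num) (not_lt.1 h)
    have h2 := Nat.pow_log_le_self 2 (show n ≠ 0 by omega)
    have h3 := Nat.lt_pow_succ_log_self (show 1 < 2 by norm_num) n
    refine ⟨Nat.log 2 n + 1, by omega, h3.le, ?_⟩
    have h4 := grow _ h1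
    have h5 := Nat.lt_succ_sqrt n
    by_contra hc
    have h6 : (3 * (n.sqrt + 1)) ^ 2 ≤
        ((Nat.log 2 n + 1) * (Nat.log 2 n + 1) + 13 * (Nat.log 2 n + 1) + 3) ^ 2 :=
      Nat.pow_le_pow_left (by omega) 2
    simp only [Nat.succ_eq_add_one] at h5
    nlinarith

end NI2
open NI2

theorem ni2 {n m g : ℕ} (hn : 30000 < n) (hm : m ≤ n) (hk : n + 1 < m + kb n) (h : IB m g) :
    n ! * g ≤ 4 ^ n * m ! := by
  have hkb : kb n = 3 * n.sqrt := by
    unfold kb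
    rw [if_neg (by omega), if_neg (by omega), if_neg (by omega)]
  rw [hkb] at hk
  obtain ⟨L, hL, hnL, hLs⟩ := exL hn
  have hs : 173 ≤ n.sqrt := Nat.le_sqrt.2 (by omega)
  have h1 := Nat.sqrt_le n
  have h2 := Nat.lt_succ_sqrt n
  simp only [Nat.succ_eq_add_one] at h2
  set s := n.sqrt
  have hss : 173 * s ≤ s * s := Nat.mul_le_mul_right _ hs
  have hLL : 15 * L ≤ L * L := Nat.mul_le_mul_right _ hL
  have h4L : 4 * L ≤ s := by omega
  have hm0 : 0 < m := by omega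
  have hmL : m ≤ 2 ^ L := hm.trans hnL
  have hp : n ^ (n - m) ≤ 2 ^ (L * (3 * s)) := by
    rw [pow_mul]
    exact (Nat.pow_le_pow_left hnL _).trans (Nat.pow_le_pow_right (by positivity) (by omega))
  suffices hg : ∃ e, g ^ 2 ≤ 2 ^ e ∧ 2 * (L * (3 * s)) + e ≤ 4 * n by
    obtain ⟨e, h5, h6⟩ := hg
    have h7 : (n ^ (n - m) * g) ^ 2 ≤ (4 ^ n) ^ 2 := by
      calc (n ^ (n - m) * g) ^ 2 = (n ^ (n - m)) ^ 2 * g ^ 2 := mul_pow _ _ _
        _ ≤ (2 ^ (L * (3 * s))) ^ 2 * 2 ^ e := Nat.mul_le_mul (Nat.pow_le_pow_left hp 2) h5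
        _ = 2 ^ (2 * (L * (3 * s)) + e) := by rw [← pow_mul, ← pow_add, mul_comm]
        _ ≤ 2 ^ (4 * n) := Nat.pow_le_pow_right (by norm_num) h6
        _ = (4 ^ n) ^ 2 := by
          rw [show (4 : ℕ) ^ n = 2 ^ (2 * n) by rw [pow_mul]; norm_num, ← pow_mul]
          congr 1
          ring
    have h8 := (Nat.pow_le_pow_iff_left (by norm_num)).1 h7
    calc n ! * g ≤ n ^ (n - m) * m ! * g := Nat.mul_le_mul_right _ (fac_le hm)
      _ = n ^ (n - m) * g * m ! := by ring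
      _ ≤ 4 ^ n * m ! := Nat.mul_le_mul_right _ h8
  obtain ⟨b, r, hb, hr, hbr, -, hB, hC⟩ := h
  have k1 : (L * L + 13 * L) * s ≤ 3 * s * s := Nat.mul_le_mul_right _ hLs
  have k2 : L * (4 * L) ≤ L * s := Nat.mul_le_mul_left _ h4L
  by_cases hbs : b ≤ s
  · have h5 := hC (2 * s) (L * (s / 2 + 2)) (by omega)
    have h6 : m ≤ (s / 2 + 2) * (2 * s) := by
      have : (s + 3) * s ≤ (2 * (s / 2 + 2)) * s := Nat.mul_le_mul_right _ (by omega)
      nlinarith
    have h7 := half hm0 hmL (cs_le hm0 (show 2 * s ≤ m by omega) h6 L)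
    refine ⟨2 * (L * (2 * s + b + L * (s / 2 + 2))) + m, ?_, ?_⟩
    · refine (Nat.pow_le_pow_left h5 2).trans ?_
      rw [mul_pow, pow_add 2 (2 * _) m, ← pow_mul 2 (Cs _ _ _), mul_comm (Cs _ _ _),
        mul_comm 2 (L * _), pow_mul 2 (L * _), pow_mul 2 L]
      exact Nat.mul_le_mul (Nat.pow_le_pow_left (Nat.pow_le_pow_left hmL _) 2)
        (Nat.pow_le_pow_right (by norm_num) h7)
    · have k3 : L * b ≤ L * s := Nat.mul_le_mul_left _ hbs
      have k4 : L * L * (2 * (s / 2)) ≤ L * L * s := Nat.mul_le_mul_left _ (by omega)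
      nlinarith
  · have hrs : r ≤ s := by
      by_contra hc
      have : (s + 1) * (s + 1) ≤ b * r := Nat.mul_le_mul (by omega) (by omega)
      omega
    have h5 := hB L
    have h6 : 2 * b ≤ m := by nlinarith
    have h7 := half hm0 hmL (qs_le h6 L)
    have h8 : (r !) ^ 2 ≤ 2 ^ (L * s) := by
      calc (r !) ^ 2 ≤ (s ^ s) ^ 2 := Nat.pow_le_pow_left
            ((Nat.factorial_le hrs).trans (Nat.factorial_le_pow s)) 2
        _ = (s * s) ^ s := by rw [← pow_mul, ← pow_two, ← pow_mul, mul_comm]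
        _ ≤ (2 ^ L) ^ s := Nat.pow_le_pow_left (h1.trans hnL) _
        _ = _ := (pow_mul _ _ _).symm
    refine ⟨(L * 2 + L * s) * L + m, ?_, by nlinarith⟩
    refine (Nat.pow_le_pow_left h5 2).trans ?_
    rw [mul_pow, pow_add 2 (_ * L) m, ← pow_mul 2 (Qs _ _ _), mul_comm (Qs _ _ _),
      ← pow_mul, mul_comm L 2, pow_mul, pow_mul 2 _ L, mul_pow, pow_add, mul_comm 2 L, pow_mul 2 L 2]
    exact Nat.mul_le_mul (Nat.pow_le_pow_left (Nat.mul_le_mul (Nat.pow_le_pow_left hmL 2) h8) _)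
      (Nat.pow_le_pow_right (by norm_num) h7)

end Cfsg.Agent.P4
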