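import Cfsg.Agent.P4.Defs

/-!
The bound for the degree of transitivity is attained.
-/

set_option autoImplicit false

namespace Cfsg.Agent.P4
namespace NT

/-- trial division -/
def td (p : ℕ) : ℕ → ℕ → Bool
  | 0, _ => false
  | f + 1, d => if p < d * d then true else if p % d = 0 then false else td p f (d + 1)

theorem td_ok (p : ℕ) : ∀ f d, td p f d = true → ∀ e, d ≤ e → e * e ≤ p → ¬ e ∣ p
  | 0, _, h => by simp [td] at h
  | f + 1, d, h => by
    intro e he hp hd
    unfold td at h
    split_ifs at h with h1 h2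
    · exact absurd (lt_of_lt_of_le h1 (Nat.mul_le_mul he he)) (not_lt.2 hp)
    · rcases he.eq_or_lt with rfl | hl
      · exact h2 (Nat.mod_eq_zero_of_dvd hd)
      · exact td_ok p f (d + 1) h e hl hp hd

def isP (p : ℕ) : Bool := decide (2 ≤ p) && td p 200 2

theorem isP_ok {p : ℕ} (h : isP p = true) : p.Prime := by
  simp only [isP, Bool.and_eq_true, decide_eq_true_eq] at h
  exact Nat.prime_def_le_sqrt.2 ⟨h.1, fun e h2 he => td_ok p _ _ h.2 e h2 (Nat.le_sqrt.1 he)⟩

def ok (n K : ℕ) : Bool := (List.range (K + 1)).any fun k => decide (k ≤ n) &&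
  ((decide (3 ≤ k) && decide (n < 2 * (n - k)) && isP (n - k)) ||
   (decide (4 ≤ k) && (List.range k).any fun q => decide (1 ≤ q) && decide ((n - k) % q = 0) &&
     decide (q < (n - k) / q) && decide (2 < (n - k) / q) && isP ((n - k) / q)))

theorem ok_ok {n K : ℕ} (h : ok n K = true) : ∃ k ≤ K, Tr n k := by
  simp only [ok, List.any_eq_true, List.mem_range, Bool.and_eq_true, Bool.or_eq_true,
    decide_eq_true_eq] at h
  obtain ⟨k, hk, hn, h | ⟨h4, q, hq, ⟨⟨⟨h1, h2⟩, h3⟩, h5⟩, h6⟩⟩ := h
  · exact ⟨k, by omega, Or.inl ⟨n - k, isP_ok h.2, h.1.2, h.1.1, by omega⟩⟩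
  · refine ⟨k, by omega, Or.inr ⟨(n - k) / q, q, isP_ok h6, h5, h1, h3, hq, h4, ?_⟩⟩
    rw [Nat.mul_div_cancel' (Nat.dvd_of_mod_eq_zero h2)]
    omega

theorem c1 : ((List.range 321).all fun n => decide (n < 9) || ok n (tbl.getD n 0)) = true := by
  decide +kernel

theorem c2 : ((List.range 3001).all fun n => decide (n < 321) || ok n 16) = true := by
  decide +kernel

def pl : List ℕ := [2971, 3023, 3079, 3137, 3191, 3229, 3271, 3329, 3373, 3413, 3469, 3527, 3583, 3637, 3691, 3739, 3797, 3853, 3911, 3967, 4021, 4079, 4133, 4177, 4231, 4289, 4339, 4397, 4451, 4507, 4561, 4603, 4657, 4703, 4759, 4817, 4871, 4919, 4973, 5023, 5081, 5119, 5171, 5227, 5281, 5333, 5387, 5443, 5501, 5557, 5591, 5647, 5701, 5749, 5807, 5861, 5903, 5953, 6011, 6067, 6121, 6173, 6229, 6287, 6343, 6397, 6451, 6491, 6547, 6599, 6653, 6709, 6763, 6803, 6857, 6911, 6967, 7019, 7069, 7127, 7177, 7229, 7283, 7333, 7369, 7417, 7459, 7517, 7573, 7621, 7673, 7727, 7759, 7817, 7873, 7927, 7963, 8017, 8069, 8123, 8179, 8237,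 8293, 8329, 8387, 8443, 8501, 8543, 8599, 8647, 8699, 8753, 8807, 8863, 8893, 8951, 9007, 9059, 9109, 9161, 9209, 9257, 9311, 9349, 9403, 9461, 9511, 9551, 9601, 9649, 9697, 9749, 9803, 9859, 9907, 9949, 10007, 10061, 10111, 10169, 10223, 10273, 10331, 10369, 10427, 10477, 10531, 10589, 10639, 10691, 10739, 10789, 10847, 10903, 10957, 11003, 11059, 11117, 11173, 11213, 11261, 11317, 11369, 11423, 11471, 11527, 11579, 11633, 11689, 11743, 11801, 11839, 11897, 11953, 12011, 12049, 12107, 12163, 12211, 12269, 12323, 12379, 12437, 12491, 12547, 12601, 12659, 12713, 12763, 12821, 12853, 12911, 12967, 13009, 13063, 13121, 13177, 13229, 13267, 13313, 13367, 13421, 13477, 13523, 13577, 13633, 13691, 13729, 13781, 13831, 13883, 13933, 13967, 14011, 14057, 14107, 14159, 14207, 14251, 14303, 14347, 14401, 14449, 14503, 14561, 14593, 14639, 14683, 14741, 14797, 14851, 14897, 14951, 14983, 15031, 15083, 15139, 15193, 15241, 15299, 15349, 15401, 15451, 15497, 15551, 15607, 15661, 15683, 15739, 15797,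 15823, 15881, 15937, 15991, 16033, 16091, 16141, 16193, 16249, 16301, 16349, 16381, 16433, 16487, 16529, 16573, 16631, 16673, 16729, 16787, 16843, 16901, 16943, 16993, 17047, 17099, 17137, 17191, 17239, 17293, 17351, 17401, 17449, 17497, 17551, 17609, 17659, 17713, 17761, 17807, 17863, 17921, 17977, 18013, 18061, 18119, 18169, 18223, 18269, 18313, 18371, 18427, 18481, 18539, 18593, 18637, 18691, 18749, 18803, 18859, 18917, 18973, 19031, 19087, 19141, 19183, 19237, 19289, 19333, 19391, 19447, 19501, 19559, 19609, 19661, 19717, 19763, 19819, 19867, 19919, 19973, 20029, 20071, 20129, 20183, 20233, 20287, 20341, 20399, 20443, 20483, 20533, 20563, 20611, 20663, 20719, 20773, 20809, 20857, 20903, 20959, 21017, 21067, 21121, 21179, 21227, 21283, 21341, 21397, 21433, 21491, 21529, 21587, 21617, 21673, 21727, 21773, 21821, 21871, 21929, 21977, 22031, 22079, 22133, 22189, 22247, 22303, 22349, 22397, 22453, 22511, 22567, 22621, 22679, 22727, 22783, 22817, 22871, 22921, 22973, 23029, 23087, 23143,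 23201, 23251, 23297, 23339, 23371, 23417, 23473, 23531, 23581, 23633, 23689, 23747, 23801, 23857, 23911, 23957, 24007, 24061, 24113, 24169, 24223, 24281, 24337, 24391, 24443, 24499, 24551, 24593, 24631, 24683, 24733, 24781, 24821, 24877, 24923, 24979, 25037, 25087, 25127, 25183, 25237, 25261, 25309, 25367, 25423, 25471, 25523, 25579, 25633, 25679, 25733, 25771, 25819, 25873, 25931, 25981, 26029, 26083, 26141, 26189, 26237, 26293, 26347, 26399, 26449, 26501, 26557, 26597, 26647, 26701, 26759, 26813, 26863, 26921, 26959, 27017, 27073, 27127, 27179, 27211, 27259, 27299, 27337, 27367, 27409, 27457, 27509, 27551, 27583, 27631, 27689, 27743, 27799, 27851, 27901, 27953, 28001, 28057, 28111, 28163, 28219, 28277, 28319, 28351, 28409, 28463, 28517, 28573, 28631, 28687, 28729, 28771, 28817, 28871, 28927, 28979, 29033, 29077, 29131, 29179, 29231, 29287, 29339, 29389, 29443, 29501, 29537, 29587, 29641, 29683, 29741, 29789, 29837, 29881, 29927, 29983]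

/-- consecutive windows cover everything from `a` to `30000` -/
def cov : ℕ → List ℕ → Bool
  | a, [] => decide (30000 < a)
  | a, p :: l => isP p && decide (p + 3 ≤ a) && decide (60 < p) && cov (p + 61) l

theorem cov_ok : ∀ (l : List ℕ) (a : ℕ), cov a l = true → ∀ n, a ≤ n → n ≤ 30000 →
    ∃ k ≤ 60, Tr n k
  | [], a, h, n, h1, h2 => by
    simp only [cov, decide_eq_true_eq] at h
    omega
  | p :: l, a, h, n, h1, h2 => by
    simp only [cov, Bool.and_eq_true, decide_eq_true_eq] at h
    by_cases hn : p + 61 ≤ n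
    · exact cov_ok l _ h.2 n hn h2
    · exact ⟨n - p, by omega, Or.inl ⟨p, isP_ok h.1.1.1, by omega, by omega, by omega⟩⟩

theorem c3 : cov 3001 pl = true := by decide +kernel

theorem big {n : ℕ} (hn : 30000 < n) : ∃ k ≤ 3 * n.sqrt, Tr n k := by
  have hs : 173 ≤ n.sqrt := Nat.le_sqrt.2 (by omega)
  have h1 := Nat.sqrt_le n
  have h2 := Nat.lt_succ_sqrt n
  set s := n.sqrt
  obtain ⟨p, hp, h3, h4⟩ := Nat.exists_prime_lt_and_le_two_mul s (by omega)
  have e1 := Nat.div_add_mod (n - 1) (p + 1)
  have e2 := Nat.mod_lt (n - 1) (show 0 < p + 1 by omega)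
  set q := (n - 1) / (p + 1)
  set t := (n - 1) % (p + 1)
  have hn' : n = q * p + (q + t + 1) := by
    have : (p + 1) * q = q * p + q := by ring
    omega
  have hq : q < s := by
    by_contra hc
    have : (s + 2) * s ≤ (p + 1) * q := Nat.mul_le_mul (by omega) (by omega)
    simp only [Nat.succ_eq_add_one] at h2
    have e3 : (s + 1) * (s + 1) = (s + 2) * s + 1 := by ring
    omega
  have hq3 : 3 ≤ q := by
    by_contra hc
    have : (p + 1) * q ≤ (p + 1) * 2 := Nat.mul_le_mul le_rfl (by omega)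
    have : 173 * s ≤ s * s := Nat.mul_le_mul hs le_rfl
    omega
  exact ⟨q + t + 1, by omega,
    Or.inr ⟨p, q, hp, by omega, by omega, by omega, by omega, by omega, hn'⟩⟩

end NT

theorem nt {n : ℕ} (hn : 9 ≤ n) : ∃ k ≤ kb n, Tr n k := by
  unfold kb
  split_ifs with h1 h2 h3
  · have := List.all_eq_true.1 NT.c1 n (List.mem_range.2 (by omega))
    rw [Bool.or_eq_true, decide_eq_true_eq] at this
    exact NT.ok_ok (this.resolve_left (by omega))
  · have := List.all_eq_true.1 NT.c2 n (List.mem_range.2 (by omega))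
    rw [Bool.or_eq_true, decide_eq_true_eq] at this
    exact NT.ok_ok (this.resolve_left (by omega))
  · exact NT.cov_ok _ _ NT.c3 n (by omega) h3
  · exact NT.big (by omega)

end Cfsg.Agent.P4
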