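import Cfsg.Agent.P4.NU0

/-!
The numerical estimate in the simply primitive case, for degrees up to `30000`.
-/

set_option autoImplicit false

namespace Cfsg.Agent.P4.NU1
open Nat

/-- Legendre's formula with fuel -/
def vf (p : ℕ) : ℕ → ℕ → ℕ
  | 0, x => x
  | f + 1, x => bif Nat.beq x 0 then 0 else x / p + vf p f (x / p)

theorem vf_ok {p : ℕ} (hp : p.Prime) : ∀ f x y, y ≤ x → padicValNat p y ! ≤ vf p f x := by
  have := Fact.mk hp
  intro f
  induction f with
  | zero =>
    intro x y h
    have h1 := sub_one_mul_padicValNat_factorial (p := p) y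
    have h2 := hp.two_le
    have h3 : 1 * padicValNat p y ! ≤ (p - 1) * padicValNat p y ! := Nat.mul_le_mul_right _ (by omega)
    simp only [vf]; omega
  | succ f ih =>
    intro x y h
    simp only [vf]
    cases hx : Nat.beq x 0
    · have h1 := padicValNat_factorial_mul_add (p := p) (y / p) (Nat.mod_lt y hp.pos)
      rw [Nat.div_add_mod, padicValNat_factorial_mul] at h1
      have h2 : y / p ≤ x / p := Nat.div_le_div_right h
      have h3 := ih _ _ h2
      simp only [cond_false]; omega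
    · obtain rfl : x = 0 := Nat.eq_of_beq_eq_true hx
      obtain rfl : y = 0 := by omega
      simp

/-- the least admissible number of cycles -/
def t0 (a p : ℕ) : ℕ → ℕ → ℕ
  | 0, t => t
  | f + 1, t => bif (Nat.ble p t || Nat.ble a (t * p + t * (t - 1))) &&
      Nat.ble a ((2 * (t * p) + 1) * (2 * (t * p) + 1)) then t else t0 a p f (t + 1)

theorem t0_ok {a p u : ℕ} (h1 : p ≤ u ∨ a ≤ u * p + u * (u - 1)) (h2 : a ≤ (2 * (u * p) + 1) ^ 2) :
    ∀ f t, t ≤ u → t ≤ t0 a p f t ∧ t0 a p f t ≤ u := by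
  intro f
  induction f with
  | zero => exact fun t h => ⟨le_rfl, h⟩
  | succ f ih =>
    intro t h
    simp only [t0]
    cases hc : (Nat.ble p t || Nat.ble a (t * p + t * (t - 1))) &&
      Nat.ble a ((2 * (t * p) + 1) * (2 * (t * p) + 1))
    · have : t ≠ u := by
        rintro rfl
        rw [← sq, Nat.ble_eq_true_of_le h2, Bool.and_true, Bool.or_eq_false_iff] at hc
        rcases h1 with h1 | h1
        · rw [Nat.ble_eq_true_of_le h1] at hc; simp at hc
        · rw [Nat.ble_eq_true_of_le h1] at hc; simp at hc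
      have := ih (t + 1) (by omega)
      simp only [cond_false]; omega
    · exact ⟨le_rfl, h⟩

/-- a bound for the exponent of `p` -/
def ex (a b p : ℕ) : ℕ :=
  bif Nat.ble p (b / p) then vf p 20 (b / p) + b / (t0 a p 200 1 * p)
  else bif Nat.ble a (b / p * p + b / p * (b / p - 1)) then 1 else 0

theorem ex_ok {a b m g p : ℕ} (ha : a ≤ m) (hb : m ≤ b) (h : UB m g) (hp : p.Prime) :
    padicValNat p g ≤ ex a b p := by
  obtain ⟨s, h1, h2⟩ := h.2 p hp
  have hd : m / p ≤ b / p := Nat.div_le_div_right hb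
  have h0 := hp.two_le
  simp only [ex]
  cases hc : Nat.ble p (b / p)
  · have hq : b / p < p := by
      by_contra e
      rw [Nat.ble_eq_true_of_le (not_lt.1 e)] at hc; simp at hc
    have := Fact.mk hp
    have h3 : padicValNat p (m / p)! = 0 := padicValNat.eq_zero_of_not_dvd fun e => by
      have := hp.dvd_factorial.1 e; omega
    rcases h2 with rfl | ⟨t, t1, t2, t3, -⟩
    · omega
    rcases Nat.eq_zero_or_pos s with rfl | hs
    · omega
    have t4 : t * p ≤ m := le_trans (Nat.le_mul_of_pos_left _ hs) t2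
    have t5 : t ≤ b / p := (Nat.le_div_iff_mul_le hp.pos).2 (t4.trans hb)
    have t6 := t3.resolve_left (by omega)
    have t7 : t * (t - 1) < t * p := Nat.mul_lt_mul_of_pos_left (by omega) t1
    have t8 : s < 2 := Nat.lt_of_mul_lt_mul_right (a := t * p) (by omega)
    have t9 : a ≤ b / p * p + b / p * (b / p - 1) :=
      ha.trans (t6.trans (Nat.add_le_add (Nat.mul_le_mul_right _ t5) (Nat.mul_le_mul t5 (by omega))))
    rw [Nat.ble_eq_true_of_le t9]
    simp only [cond_false, cond_true]; omega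
  · have h3 := vf_ok hp 20 _ _ hd
    simp only [cond_true]
    rcases h2 with rfl | ⟨t, t1, t2, t3, t4⟩
    · exact (h1.trans h3).trans (Nat.le_add_right _ _)
    obtain ⟨u1, u2⟩ := t0_ok (a := a) (t3.imp_right ha.trans) (ha.trans t4) 200 1 t1
    have : s ≤ b / (t0 a p 200 1 * p) := (Nat.le_div_iff_mul_le (Nat.mul_pos u1 hp.pos)).2
      ((Nat.mul_le_mul_left _ (Nat.mul_le_mul_right _ u2)).trans (t2.trans hb))
    omega

theorem le_of_dvd {m g p : ℕ} (h : UB m g) (hp : p.Prime) (hd : p ∣ g) : p ≤ m := by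
  obtain ⟨s, h1, h2⟩ := h.2 p hp
  have := Fact.mk hp
  have h3 := one_le_padicValNat_of_dvd h.1 hd
  by_contra e
  rw [Nat.div_eq_of_lt (not_le.1 e)] at h1
  simp only [factorial_zero, padicValNat_one_right] at h1
  rcases h2 with rfl | ⟨t, t1, t2, -⟩
  · omega
  · exact e (le_trans (Nat.le_mul_of_pos_left _ t1) (le_trans (Nat.le_mul_of_pos_left _ (by omega)) t2))

/-- the bound for the order -/
def U (a b : ℕ) : List ℕ → ℕ
  | [] => 1
  | p :: l => bif Nat.ble p b then p ^ ex a b p * U a b l else 1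

/-- a test for compositeness -/
def cz (r c P : ℕ) : Bool := Nat.blt c r && Nat.blt 1 (Nat.gcd r P)

theorem cz_ok {r c P : ℕ} (hP : P ∣ c !) (h : cz r c P = true) : ¬ r.Prime := fun hr => by
  simp only [cz, Bool.and_eq_true, Nat.blt_eq] at h
  have h1 := (hr.eq_one_or_self_of_dvd _ (Nat.gcd_dvd_left r P)).resolve_left h.2.ne'
  have := hr.dvd_factorial.1 ((h1 ▸ Nat.gcd_dvd_right r P).trans hP)
  omega

def cp (r : ℕ) : Bool := cz r 3 6 || (cz r 13 30030 || cz r 173 pr173)

theorem cp_ok {r : ℕ} (h : cp r = true) : ¬ r.Prime := by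
  simp only [cp, Bool.or_eq_true] at h
  rcases h with h | h | h
  · exact cz_ok (by decide) h
  · exact cz_ok (by decide +kernel) h
  · exact cz_ok (by decide +kernel) h

def gap (k : ℕ) : ℕ → Bool
  | 0 => true
  | d + 1 => cp (k + d) && gap k d

theorem gap_ok {k r : ℕ} (hr : r.Prime) (h1 : k ≤ r) : ∀ d, gap k d = true → k + d ≤ r := by
  intro d
  induction d with
  | zero => exact fun _ => h1
  | succ d ih =>
    intro h
    simp only [gap, Bool.and_eq_true] at h
    have h2 := ih h.2
    have : k + d ≠ r := fun e => cp_ok h.1 (e ▸ hr)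
    omega

/-- the list contains the primes from `k` to `30000` in increasing order -/
def cov : ℕ → List ℕ → Bool
  | k, [] => Nat.blt 30000 k
  | k, p :: l => Nat.ble k p && (gap k (p - k) && cov (p + 1) l)

theorem cov_ok {a b : ℕ} (hb : b ≤ 30000) : ∀ (l : List ℕ) (k : ℕ), 1 ≤ k → cov k l = true →
    U a b l ≠ 0 ∧ ∀ r, r.Prime → k ≤ r → r ≤ b → r ^ ex a b r ∣ U a b l := by
  intro l
  induction l with
  | nil =>
    intro k _ h
    simp only [cov, Nat.blt_eq] at h
    exact ⟨one_ne_zero, fun r _ _ _ => by omega⟩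
  | cons p l ih =>
    intro k hk h
    simp only [cov, Bool.and_eq_true, Nat.ble_eq] at h
    obtain ⟨h1, h2⟩ := ih (p + 1) (by omega) h.2.2
    refine ⟨?_, fun r hr r1 r2 => ?_⟩
    · simp only [U]
      cases Nat.ble p b
      · exact one_ne_zero
      · exact mul_ne_zero (pow_ne_zero _ (by omega)) h1
    · have h3 := gap_ok hr r1 _ h.2.1
      simp only [U, Nat.ble_eq_true_of_le (show p ≤ b by omega), cond_true]
      rcases Nat.eq_or_lt_of_le (show p ≤ r by omega) with rfl | h4
      · exact dvd_mul_right _ _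
      · exact (h2 r hr h4 r2).mul_left _

theorem cov_pl : cov 2 pl = true := by decide +kernel

theorem le_U {a b m g : ℕ} (ha : a ≤ m) (hb : m ≤ b) (h : UB m g) (hb' : b ≤ 30000) :
    g ≤ U a b pl := by
  obtain ⟨h1, h2⟩ := cov_ok (a := a) hb' pl 2 (by omega) cov_pl
  refine Nat.le_of_dvd (Nat.pos_of_ne_zero h1) ((Nat.dvd_iff_prime_pow_dvd_dvd _ _).2 fun p k hp hk => ?_)
  have := Fact.mk hp
  rcases Nat.eq_zero_or_pos k with rfl | h0
  · simp
  exact (pow_dvd_pow _ (((padicValNat_dvd_iff_le h.1).1 hk).trans (ex_ok ha hb h hp))).trans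
    (h2 p hp hp.two_le ((le_of_dvd h hp ((dvd_pow_self p h0.ne').trans hk)).trans hb))

/-- the check on intervals -/
def chkI (K : ℕ) : ℕ → List ℕ → Bool
  | _, [] => true
  | a, b :: l => Nat.ble b 30000 && (Nat.ble (U a b pl * (b + K) ^ K) (4 ^ (a + K)) && chkI K (b + 1) l)

theorem chkI_ok {K m n g : ℕ} (hK : 4 ≤ K) (h : UB m g) (h1 : m ≤ n) (h2 : n ≤ m + K) :
    ∀ (l : List ℕ) (a : ℕ), chkI K a l = true → a ≤ m → (∃ b ∈ l, m ≤ b) →
      n ! * g ≤ 4 ^ n * m ! := by
  intro l
  induction l with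
  | nil => simp
  | cons b l ih =>
    intro a hc ha hb
    simp only [chkI, Bool.and_eq_true, Nat.ble_eq] at hc
    by_cases e : m ≤ b
    · obtain ⟨d, rfl⟩ := Nat.exists_eq_add_of_le h1
      obtain ⟨c, rfl⟩ := Nat.exists_eq_add_of_le (show d ≤ K by omega)
      have u1 := le_U ha e h hc.1
      have u2 : (m + d)! ≤ (b + (d + c)) ^ d * m ! := by
        rw [← Nat.factorial_mul_descFactorial (Nat.le_add_left d m), Nat.add_sub_cancel, mul_comm]
        exact Nat.mul_le_mul_right _
          ((Nat.descFactorial_le_pow _ _).trans (Nat.pow_le_pow_left (by omega) _))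
      have u3 : U a b pl * (b + (d + c)) ^ d ≤ 4 ^ (a + d) := by
        have h4 : 4 ^ c ≤ (b + (d + c)) ^ c := Nat.pow_le_pow_left (by omega) c
        refine Nat.le_of_mul_le_mul_right (c := 4 ^ c) ?_ (by positivity)
        calc _ ≤ U a b pl * (b + (d + c)) ^ d * (b + (d + c)) ^ c := Nat.mul_le_mul_left _ h4
          _ = U a b pl * (b + (d + c)) ^ (d + c) := by rw [mul_assoc, ← pow_add]
          _ ≤ 4 ^ (a + (d + c)) := hc.2.1
          _ = _ := by rw [← pow_add, add_assoc]
      calc _ ≤ (b + (d + c)) ^ d * m ! * U a b pl := Nat.mul_le_mul u2 u1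
        _ = U a b pl * (b + (d + c)) ^ d * m ! := by ring
        _ ≤ _ := Nat.mul_le_mul_right _ (u3.trans (Nat.pow_le_pow_right (by omega) (by omega)))
    · obtain ⟨b', hb1, hb2⟩ := hb
      rcases List.mem_cons.1 hb1 with rfl | hb1
      · exact absurd hb2 e
      · exact ih _ hc.2.2 (by omega) ⟨b', hb1, hb2⟩

theorem chk1 : chkI 15 306 iv1 = true := by decide +kernel

theorem chk2 : chkI 59 2942 iv2 = true := by decide +kernel

/-- the check for one small degree -/
def chkD (n : ℕ) : ℕ → Bool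
  | 0 => true
  | d + 1 => Nat.ble (U (n - d) (n - d) pl * n.descFactorial d) (4 ^ n) && chkD n d

def chkS : ℕ → Bool
  | 0 => true
  | n + 1 => chkD n (tbl.getD n 0) && chkS n

theorem chkD_ok {n d : ℕ} : ∀ k, chkD n k = true → d < k →
    U (n - d) (n - d) pl * n.descFactorial d ≤ 4 ^ n := by
  intro k
  induction k with
  | zero => omega
  | succ k ih =>
    intro h hd
    simp only [chkD, Bool.and_eq_true, Nat.ble_eq] at h
    rcases Nat.eq_or_lt_of_le (Nat.lt_succ_iff.1 hd) with rfl | e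
    · exact h.1
    · exact ih h.2 e

theorem chkS_ok {n : ℕ} : ∀ k, chkS k = true → n < k → chkD n (tbl.getD n 0) = true := by
  intro k
  induction k with
  | zero => omega
  | succ k ih =>
    intro h hd
    simp only [chkS, Bool.and_eq_true] at h
    rcases Nat.eq_or_lt_of_le (Nat.lt_succ_iff.1 hd) with rfl | e
    · exact h.1
    · exact ih h.2 e

theorem chk0 : chkS 321 = true := by decide +kernel

end NU1
open Nat NU1

theorem nu1 {n m g : ℕ} (hn : n ≤ 30000) (h1 : m ≤ n) (h2 : n < m + kb n) (h : UB m g) :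
    n ! * g ≤ 4 ^ n * m ! := by
  unfold kb at h2
  split_ifs at h2 with e1 e2
  · have h3 := chkD_ok (d := n - m) _ (chkS_ok (n := n) 321 chk0 (by omega)) (by omega)
    rw [Nat.sub_sub_self h1] at h3
    have h4 := le_U le_rfl le_rfl h (by omega)
    rw [← Nat.factorial_mul_descFactorial (Nat.sub_le n m), Nat.sub_sub_self h1]
    calc _ ≤ m ! * n.descFactorial (n - m) * U m m pl := Nat.mul_le_mul_left _ h4
      _ = U m m pl * n.descFactorial (n - m) * m ! := by ring
      _ ≤ _ := Nat.mul_le_mul_right _ h3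
  · exact chkI_ok (by omega) h h1 (by omega) _ _ chk1 (by omega) ⟨3085, by decide, by omega⟩
  · exact chkI_ok (by omega) h h1 (by omega) _ _ chk2 (by omega) ⟨30000, by decide, by omega⟩

end Cfsg.Agent.P4
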