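import Cfsg.Agent.P4.Defs

/-!
The numerical estimate for simply primitive groups of large degree.
-/

set_option autoImplicit false

namespace Cfsg.Agent.P4
open Finset Real Nat

namespace N2

theorem hlp {d a m : ℕ} (K : ℕ) (h : d * a ≤ m) (hd : 0 < d) : a * K ≤ m * (K / d + 1) :=
  calc a * K ≤ a * (d * (K / d + 1)) := Nat.mul_le_mul_left _ (Nat.lt_mul_div_succ K hd).le
    _ = d * a * (K / d + 1) := by ring
    _ ≤ _ := Nat.mul_le_mul_right _ h

/-- the primes which may occur through an element with few cycles -/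
def Sp (m p : ℕ) : Prop := ∃ t, 1 ≤ t ∧ t * p ≤ m ∧ m ≤ t * p + t * (t - 1)

theorem split {m g p : ℕ} (hm : 29000 ≤ m) (h : UB m g) (hp : p.Prime) :
    ∃ a s c, padicValNat p g ≤ a + s + c ∧ p * (p - 1) * a ≤ m ∧ max 85 (p * p) * s ≤ m ∧
      (c = 0 ∨ c = 1 ∧ Sp m p) := by
  have := Fact.mk hp
  obtain ⟨s, h1, h2⟩ := h.2 p hp
  have ha : p * (p - 1) * padicValNat p (m / p)! ≤ m := by
    rw [mul_assoc, sub_one_mul_padicValNat_factorial]
    exact (Nat.mul_le_mul_left _ (Nat.sub_le _ _)).trans (Nat.mul_div_le m p)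
  rcases h2 with rfl | ⟨t, t1, t2, t3, t4⟩
  · exact ⟨_, 0, 0, h1, ha, by simp, .inl rfl⟩
  by_cases hpt : p ≤ t
  · refine ⟨_, s, 0, h1, ha, le_trans ?_ t2, .inl rfl⟩
    rw [mul_comm]
    refine Nat.mul_le_mul_left _ (max_le ?_ (Nat.mul_le_mul_right _ hpt))
    by_contra! e
    have : (2 * (t * p) + 1) ^ 2 ≤ 169 ^ 2 := Nat.pow_le_pow_left (by omega) 2
    omega
  have t5 := t3.resolve_left hpt
  have t6 : t * (t - 1) < t * p := Nat.mul_lt_mul_of_pos_left (by omega) t1
  rcases s with _ | _ | s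
  · exact ⟨_, 0, 0, h1, ha, by simp, .inl rfl⟩
  · exact ⟨_, 0, 1, h1, ha, by simp, .inr ⟨rfl, t, t1, by omega, t5⟩⟩
  · exfalso; nlinarith

/-- a superset of the primes -/
def isP (j : ℕ) : Bool :=
  j == 2 || j == 3 || j == 5 || j == 7 || (7 < j && j % 2 != 0 && j % 3 != 0 && j % 5 != 0 && j % 7 != 0)

theorem isP_of {p : ℕ} (hp : p.Prime) : isP p = true := by
  have k : ∀ r, r.Prime → p % r = 0 → r = p := fun r hr e =>
    (Nat.prime_dvd_prime_iff_eq hr hp).1 (Nat.dvd_of_mod_eq_zero e)
  have := k 2 (by norm_num)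
  have := k 3 (by norm_num)
  have := k 5 (by norm_num)
  have := k 7 (by norm_num)
  have := hp.two_le
  simp only [isP, Bool.or_eq_true, Bool.and_eq_true, beq_iff_eq, bne_iff_ne, decide_eq_true_eq]
  omega

/-- the weight of a small prime -/
def cN (j : ℕ) : ℕ := if isP j then
  (10 ^ 6 / (j * (j - 1)) + 1 + (10 ^ 6 / max 85 (j * j) + 1)) * ((j ^ 32).log2 + 1) else 0

theorem sum_cN : ∑ j ∈ range 257, cN j ≤ 42560000 := by decide +kernel

noncomputable def hh (j : ℕ) : ℝ := (Real.log j + 2) / j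

theorem hh_sub {j : ℕ} (hj : 1 ≤ j) :
    Real.log (j + 1 : ℕ) / ((j + 1 : ℕ) * j) ≤ hh j - hh (j + 1) := by
  have j0 : (1 : ℝ) ≤ j := by exact_mod_cast hj
  have h := Real.log_le_sub_one_of_pos (x := (j + 1) / j) (by positivity)
  rw [Real.log_div (by positivity) (by positivity), div_sub_one (by positivity),
    le_div_iff₀ (by positivity)] at h
  have h' : Real.log (j + 1) - Real.log j ≤ 1 := by
    have := Real.log_le_log (x := j) (y := j + 1) (by positivity) (by linarith)
    nlinarith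
  unfold hh
  push_cast
  rw [div_sub_div _ _ (by positivity) (by positivity), mul_comm (j : ℝ) (j + 1 : ℝ)]
  exact div_le_div_of_nonneg_right (by nlinarith) (by positivity)

noncomputable def FF (j : ℕ) : ℝ :=
  if j < 257 then cN j / (32 * 10 ^ 6) * Real.log 2 else 2 * (hh (j - 1) - hh j)

theorem FF_nonneg (j : ℕ) : 0 ≤ FF j := by
  unfold FF
  split_ifs with h
  · have := Real.log_nonneg (one_le_two (α := ℝ))
    positivity
  · obtain ⟨j, rfl⟩ : ∃ i, j = i + 1 := ⟨j - 1, by omega⟩
    have := hh_sub (j := j) (by omega)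
    have h0 : 0 ≤ Real.log (j + 1 : ℕ) / ((j + 1 : ℕ) * j) :=
      div_nonneg (Real.log_natCast_nonneg _) (by positivity)
    simp only [Nat.add_sub_cancel]
    linarith

theorem sum_FF (N : ℕ) : ∑ j ∈ range (257 + N), FF j ≤ 0.981 := by
  have h : ∑ j ∈ range (257 + N), FF j ≤ 1.33 * Real.log 2 + 2 * (hh 256 - hh (256 + N)) := by
    induction N with
    | zero =>
      rw [sum_congr rfl fun j hj => show FF j = cN j / (32 * 10 ^ 6) * Real.log 2 from
        if_pos (by simpa using hj), ← sum_mul, ← sum_div, ← Nat.cast_sum]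
      have h1 : ((∑ j ∈ range 257, cN j : ℕ) : ℝ) ≤ 42560000 := by exact_mod_cast sum_cN
      have := Real.log_nonneg (one_le_two (α := ℝ))
      simp only [Nat.add_zero, sub_self, mul_zero, add_zero]
      exact mul_le_mul_of_nonneg_right (by rw [div_le_iff₀ (by norm_num)]; linarith) this
    | succ N ih =>
      rw [← Nat.add_assoc, sum_range_succ, FF, if_neg (by omega),
        show 257 + N - 1 = 256 + N by omega, show 256 + (N + 1) = 257 + N by omega]
      linarith
  have h1 : 0 ≤ hh (256 + N) :=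
    div_nonneg (add_nonneg (Real.log_natCast_nonneg _) zero_le_two) (by positivity)
  have h2 : hh 256 = (8 * Real.log 2 + 2) / 256 := by
    rw [hh, show ((256 : ℕ) : ℝ) = 2 ^ 8 by norm_num, Real.log_pow]; norm_num
  have := Real.log_two_lt_d9
  rw [h2] at h
  linarith

theorem term {m p a s : ℕ} (hp : p.Prime) (ha : p * (p - 1) * a ≤ m) (hs : max 85 (p * p) * s ≤ m) :
    ((a : ℝ) + s) * Real.log p ≤ m * FF p := by
  have p2 := hp.two_le
  have l0 := Real.log_natCast_nonneg p
  unfold FF
  split_ifs with h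
  · have h1 := hlp (10 ^ 6) ha (Nat.mul_pos (by omega) (by omega))
    have h2 := hlp (10 ^ 6) hs (by omega)
    have h3 : (32 : ℝ) * Real.log p ≤ ((p ^ 32).log2 + 1 : ℕ) * Real.log 2 := by
      have := Real.log_le_log (x := ((p ^ 32 : ℕ) : ℝ)) (y := ((2 ^ ((p ^ 32).log2 + 1) : ℕ) : ℝ))
        (by positivity) (by exact_mod_cast Nat.lt_log2_self.le)
      rw [Nat.cast_pow, Nat.cast_pow, Real.log_pow, Real.log_pow] at this
      exact_mod_cast this
    rw [cN, if_pos (isP_of hp), Nat.cast_mul]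
    have h4 : ((a : ℝ) + s) * 10 ^ 6 ≤
        m * ((10 ^ 6 / (p * (p - 1)) + 1 + (10 ^ 6 / max 85 (p * p) + 1) : ℕ) : ℝ) := by
      have := Nat.add_le_add h1 h2
      rw [← add_mul, ← mul_add] at this
      exact_mod_cast this
    have := mul_le_mul h4 h3 (by positivity) (by positivity)
    rw [div_mul_eq_mul_div, ← mul_div_assoc, le_div_iff₀ (by positivity)]
    linarith
  · obtain ⟨j, rfl⟩ : ∃ i, p = i + 1 := ⟨p - 1, by omega⟩
    have h1 := hh_sub (j := j) (by omega)
    simp only [Nat.add_sub_cancel] at ha ⊢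
    have hs' : (j + 1) * j * s ≤ m := le_trans (Nat.mul_le_mul_right _
      ((Nat.mul_le_mul_left _ j.le_succ).trans (le_max_right _ _))) hs
    have j0 : (0 : ℝ) < (j + 1 : ℕ) * j := by
      have : 0 < j := by omega
      positivity
    have h2 : ((a : ℝ) + s) * ((j + 1 : ℕ) * j) ≤ 2 * m := by
      have : (a + s) * ((j + 1) * j) ≤ 2 * m := by
        rw [add_mul, mul_comm a, mul_comm s, two_mul]; exact Nat.add_le_add ha hs'
      exact_mod_cast this
    have h3 : 0 ≤ hh j - hh (j + 1) := (div_nonneg l0 j0.le).trans h1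
    rw [div_le_iff₀ j0] at h1
    calc _ ≤ ((a : ℝ) + s) * ((hh j - hh (j + 1)) * ((j + 1 : ℕ) * j)) :=
          mul_le_mul_of_nonneg_left h1 (by positivity)
      _ = ((a : ℝ) + s) * ((j + 1 : ℕ) * j) * (hh j - hh (j + 1)) := by ring
      _ ≤ 2 * m * (hh j - hh (j + 1)) := mul_le_mul_of_nonneg_right h2 h3
      _ = _ := by ring

open Classical in
theorem spec {m : ℕ} (hm : 1 ≤ m) (S : Finset ℕ) (hS : ∀ p ∈ S, p.Prime) :
    ∑ p ∈ S, (if Sp m p then Real.log p else 0) ≤ m / 6 * Real.log 2 + 132 * Real.log m := by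
  let A := (range (m / 12 + 1)).filter Nat.Prime
  let B := (range 12 ×ˢ range 11).image fun x : ℕ × ℕ => m / x.1 - x.2
  have hA : ∑ p ∈ A, Real.log p ≤ m / 6 * Real.log 2 := by
    rw [← Real.log_prod fun p hp => by exact_mod_cast (mem_filter.1 hp).2.ne_zero, ← Nat.cast_prod]
    have h1 : ((primorial (m / 12) : ℕ) : ℝ) ≤ 2 ^ (2 * (m / 12)) := by
      rw [pow_mul]; exact_mod_cast primorial_le_four_pow (m / 12)
    refine (Real.log_le_log (by exact_mod_cast primorial_pos _) h1).trans ?_
    rw [Real.log_pow]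
    refine mul_le_mul_of_nonneg_right ?_ (Real.log_nonneg one_le_two)
    rw [le_div_iff₀ (by norm_num)]
    exact_mod_cast (by omega : 2 * (m / 12) * 6 ≤ m)
  have hB : ∑ p ∈ B, Real.log p ≤ 132 * Real.log m := by
    refine (sum_le_card_nsmul B _ (Real.log m) fun p hp => ?_).trans ?_
    · obtain ⟨x, -, rfl⟩ := mem_image.1 hp
      rcases (m / x.1 - x.2).eq_zero_or_pos with e | e
      · rw [e]; simpa using Real.log_natCast_nonneg m
      · exact Real.log_le_log (by exact_mod_cast e)
          (by exact_mod_cast (Nat.sub_le _ _).trans (Nat.div_le_self _ _))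
    · rw [nsmul_eq_mul]
      exact mul_le_mul_of_nonneg_right (by exact_mod_cast card_image_le.trans (by simp))
        (Real.log_natCast_nonneg m)
  rw [← sum_filter]
  refine (sum_le_sum_of_subset_of_nonneg (t := A ∪ B) (fun p hp => ?_)
    fun p _ _ => Real.log_natCast_nonneg p).trans ?_
  · obtain ⟨h1, t, t1, t2, t3⟩ := mem_filter.1 hp
    by_cases e : p ≤ m / 12
    · exact mem_union_left _ (mem_filter.2 ⟨mem_range.2 (by omega), hS p h1⟩)
    have t4 : t < 12 := by
      by_contra! e'
      have := Nat.mul_le_mul_right p e'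
      omega
    have t5 : p ≤ m / t := (Nat.le_div_iff_mul_le t1).2 (by rwa [mul_comm])
    have t6 : m / t ≤ p + (t - 1) := Nat.div_le_of_le_mul (by rwa [mul_add])
    exact mem_union_right _ (mem_image.2 ⟨(t, m / t - p), by simp; omega, by simp; omega⟩)
  · have := sum_union_inter (s₁ := A) (s₂ := B) (f := fun p : ℕ => Real.log p)
    have := sum_nonneg (s := A ∩ B) fun p _ => Real.log_natCast_nonneg p
    linarith

theorem log_le {m g : ℕ} (hm : 29000 ≤ m) (h : UB m g) :
    Real.log g ≤ 1.097 * m + 132 * Real.log m := by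
  classical
  have hS : ∀ p ∈ g.factorization.support, p.Prime := fun p hp => Nat.prime_of_mem_primeFactors hp
  have h1 := spec (m := m) (by omega) _ hS
  have h2 : ∑ p ∈ g.factorization.support, FF p ≤ 0.981 :=
    (sum_le_sum_of_subset_of_nonneg (fun p hp => mem_range.2 (by
      have := Nat.le_of_mem_primeFactors hp
      omega)) fun p _ _ => FF_nonneg p).trans (sum_FF g)
  have h3 : Real.log g ≤ ∑ p ∈ g.factorization.support,
      (m * FF p + if Sp m p then Real.log p else 0) := by
    rw [Real.log_nat_eq_sum_factorization]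
    refine sum_le_sum fun p hp => ?_
    obtain ⟨a, s, c, e1, e2, e3, e4⟩ := split hm h (hS p hp)
    have e5 := term (hS p hp) e2 e3
    have l0 := Real.log_natCast_nonneg p
    have e6 : (g.factorization p : ℝ) ≤ a + s + c := by
      rw [Nat.factorization_def _ (hS p hp)]; exact_mod_cast e1
    have e7 := mul_le_mul_of_nonneg_right e6 l0
    rcases e4 with rfl | ⟨rfl, e4⟩
    · have : 0 ≤ if Sp m p then Real.log p else 0 := by split_ifs <;> simp [l0]
      push_cast at e7
      linarith
    · rw [if_pos e4]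
      push_cast at e7
      linarith
  rw [sum_add_distrib, ← mul_sum] at h3
  have := Real.log_two_lt_d9
  have m0 : (0 : ℝ) ≤ m := by positivity
  nlinarith

end N2

theorem nu2 {n m g : ℕ} (hn : 30000 < n) (h1 : m ≤ n) (h2 : n < m + kb n) (h : UB m g) :
    n ! * g ≤ 4 ^ n * m ! := by
  rw [kb, if_neg (by omega), if_neg (by omega), if_neg (by omega)] at h2
  have s1 := Nat.sqrt_le n
  have s2 := Nat.lt_succ_sqrt n
  have s3 : 173 ≤ n.sqrt := Nat.le_sqrt.2 (by omega)
  generalize n.sqrt = s at *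
  have hm : 29000 ≤ m := by nlinarith
  have h3 := N2.log_le hm h
  have g0 : (0 : ℝ) < g := by exact_mod_cast Nat.pos_of_ne_zero h.1
  have n0 : (0 : ℝ) < n := by exact_mod_cast (by omega : 0 < n)
  have h4 : n ^ (n - m) * g ≤ 4 ^ n := by
    have r1 : (s : ℝ) * s ≤ n := by exact_mod_cast s1
    have r2 : (n : ℝ) ≤ (s + 1) ^ 2 := by exact_mod_cast (by nlinarith : n ≤ (s + 1) ^ 2)
    have r3 : (173 : ℝ) ≤ s := by exact_mod_cast s3
    have r4 : ((n - m : ℕ) : ℝ) ≤ 3 * s := by exact_mod_cast (by omega : n - m ≤ 3 * s)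
    have r5 : (m : ℝ) ≤ n := by exact_mod_cast h1
    have l1 : Real.log m ≤ Real.log n :=
      Real.log_le_log (by exact_mod_cast (by omega : 0 < m)) r5
    have l2 := Real.log_le_log n0 r2
    have l3 := Real.log_le_sub_one_of_pos (x := (s + 1) / 2 ^ 7) (by positivity)
    rw [Real.log_div (by positivity) (by positivity), Real.log_pow] at l3
    rw [Real.log_pow] at l2
    have l4 := Real.log_two_lt_d9
    have l5 := Real.log_two_gt_d9
    have l6 : Real.log n ≤ 7.73 + s / 64 := by push_cast at l2 l3; linarith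
    have l0 := Real.log_natCast_nonneg n
    have : Real.log ((n : ℝ) ^ (n - m) * g) ≤ Real.log ((2 : ℝ) ^ (2 * n)) := by
      rw [Real.log_mul (by positivity) g0.ne', Real.log_pow, Real.log_pow]
      push_cast
      have a1 := mul_le_mul_of_nonneg_right r4 l0
      have a2 := mul_le_mul_of_nonneg_left l6 (show (0 : ℝ) ≤ 3 * s + 132 by positivity)
      have a3 := mul_le_mul_of_nonneg_left l5.le n0.le
      nlinarith
    rw [Real.log_le_log_iff (by positivity) (by positivity), pow_mul] at this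
    exact_mod_cast this
  calc n ! * g = m ! * n.descFactorial (n - m) * g := by
        rw [← Nat.factorial_mul_descFactorial (Nat.sub_le n m), Nat.sub_sub_self h1]
    _ ≤ m ! * n ^ (n - m) * g := by gcongr; exact Nat.descFactorial_le_pow _ _
    _ ≤ _ := by rw [mul_assoc, mul_comm]; exact Nat.mul_le_mul_right _ h4

end Cfsg.Agent.P4
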